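import Cfsg.Agent.Mult.Bal9
import Cfsg.Agent.AutCl.OQuot

/-! Class splitting for involutory graph automorphisms of even-dimensional orthogonal groups
(`selfadj_of_graph`, `exists_spin_comm`, `det_sq_of_sim`, `det_of_sq_nonsq`, `graph_split`, `minus_right_eq_one`). -/

set_option autoImplicit false

namespace Cfsg.Agent.Mult.Bal

open Cfsg.Agent.Geom Cfsg.Agent.Geom.Formed Cfsg.Agent.AutCl Module SemidirectProduct
open Matrix hiding inv_inj mul_inv_rev

variable {ι : Type} [Fintype ι] [DecidableEq ι] {F : Type*} [Field F] [Finite F]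
  {Q : QuadraticForm F (ι → F)} {s : GL ι F}

theorem selfadj_of_graph (E : EvO Q) (h2 : (2 : F) ≠ 0) {hs : s ∈ Sim (ofQuad Q)} (h : s ∉ E.SimP)
    (ho : (clO E.nd E.h7).theta ⟨inl s, hs⟩ ^ 2 = 1) : ∃ c : Fˣ, (∀ v, s.1 *ᵥ (s.1 *ᵥ v) = (c : F) • v) ∧
      Simi (ofQuad Q) (ofQuad Q) s c := by
  have C := clO E.nd E.h7
  have := C.nonempty
  rw [← map_pow, C.pSim.ker] at ho
  obtain ⟨c, hc⟩ := ho
  have h1 : ∀ v, s.1 *ᵥ (s.1 *ᵥ v) = (c : F) • v := fun v => by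
    simpa [sq, AutCl.act_mul] using congrArg (AutCl.act · v) hc
  obtain ⟨μ, hμ⟩ := mem_Sim.1 hs
  have hB : ∀ x y, (c : F) * Q.polarBilin (s.1 *ᵥ x) y = μ * Q.polarBilin x (s.1 *ᵥ y) := fun x y => by
    have := hμ.B x (s.1 *ᵥ y)
    rwa [h1, B_smul_right] at this
  have hsy : ∀ x y, Q.polarBilin y x = Q.polarBilin x y := fun x y => by simp [QuadraticMap.polar_comm]
  have h3 : μ * μ = c * c := (hμ.mul hμ).unique E.nd (by
    rw [show s * s = scal c from Units.ext (Matrix.ext_iff_mulVec.2 fun v => by simp [← mulVec_mulVec, h1])]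
    exact simi_scal c)
  rw [E.mem_SimP_iff_det h2 hμ] at h
  rcases mul_self_eq_mul_self_iff.1 h3 with rfl | rfl
  · exact ⟨c, h1, hμ⟩
  obtain ⟨k, hk⟩ := E.ev
  have h4 : ∀ x y, Q.polarBilin (s.1 *ᵥ x) y = -Q.polarBilin x (s.1 *ᵥ y) := fun x y =>
    mul_left_cancel₀ c.ne_zero (by linear_combination hB x y)
  refine absurd ((Gr.alt_det (B := Q.polarBilin.compl₁₂ (toLin' s.1) .id) ⟨fun x hx => ?_, Or.inr fun x y => ?_⟩
    (fun x => ?_) (m := k) (by omega) hμ.ne fun x y => hμ.B _ _).trans (by congr 1; omega)) h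
  · simpa [h1] using congrArg (s.1 *ᵥ ·) (E.nd _ hx)
  · exact (h4 x y).trans (by rw [hsy]; rfl)
  · exact mul_left_cancel₀ h2 (by
      have := h4 x x; rw [hsy (s.1 *ᵥ x)] at this; change 2 * Q.polarBilin (s.1 *ᵥ x) x = _
      linear_combination this)

/-- Two reflections in a nondegenerate subspace on which `s` is scalar. -/
theorem exists_spin_of_sub (hQ : (ofQuad Q).Nondeg) (h2 : (2 : F) ≠ 0) [Nonempty ι] (hs : s ∈ Sim (ofQuad Q))
    {U : Submodule F (ι → F)} (hU : ((ofQuad Q).restrict U).Nondeg) (hd : 2 ≤ finrank F U) {t : F}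
    (ht : ∀ u ∈ U, s.1 *ᵥ u = t • u) : ∃ k : OG Q, dick k = 1 ∧ spin k = -1 ∧ s * ogl Q k = ogl Q k * s := by
  obtain ⟨κ, hκ0, hκ⟩ := exists_not_isSquare h2
  obtain ⟨u, hu, e⟩ := (ofQuad Q).exists_B_self_eq h2 rfl hU hd 2
  obtain ⟨v, hv, e'⟩ := (ofQuad Q).exists_B_self_eq h2 rfl hU hd (2 * κ)
  have e1 : Q u = 1 := mul_left_cancel₀ h2 (by simpa [two_mul, two_smul] using e)
  have e2 : Q v = κ := mul_left_cancel₀ h2 (by simpa [two_mul, two_smul] using e')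
  have key : ∀ u ∈ U, Q u ≠ 0 → s * ogl Q (refl Q u) = ogl Q (refl Q u) * s := fun u hu h0 => by
    rw [← mul_inv_eq_iff_eq_mul, conj_ogl_refl hs, ht u hu, refl_smul]
    rintro rfl
    have := congrArg (s⁻¹.1 *ᵥ ·) (ht u hu)
    simp only [GL_inv_mulVec, zero_smul, mulVec_zero] at this
    exact h0 (by simp [this])
  refine ⟨refl Q u * refl Q v, ?_, ?_, ?_⟩
  · rw [dick_refl_mul hQ (by simp [e1]), dick_refl hQ (by simpa [e2]), neg_neg]
  · rw [spin_refl_mul hQ (by simp [e1]), spin_refl hQ (by simpa [e2]), e1, e2, sqSign_one, one_mul,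
      sqSign_eq_neg_one_iff.2 hκ]
  · rw [map_mul, ← mul_assoc, key u hu (by simp [e1]), mul_assoc, key v hv (by simpa [e2]), mul_assoc]

theorem nondeg_fix (hQ : (ofQuad Q).Nondeg) (h2 : (2 : F) ≠ 0) {S : (ι → F) →ₗ[F] (ι → F)} (h : ∀ v, S (S v) = v)
    (hB : ∀ x y, Q.polarBilin (S x) y = Q.polarBilin x (S y)) :
    ((ofQuad Q).restrict (LinearMap.ker (S - 1))).Nondeg := fun x hx =>
  Subtype.ext (hQ _ fun v => mul_left_cancel₀ h2 (by
    have h5 := hx ⟨v + S v, by simp [h, add_comm]⟩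
    change Q.polarBilin x (v + _) = 0 at h5
    rw [map_add, ← hB, show S x = x from sub_eq_zero.1 x.2] at h5
    change 2 * Q.polarBilin x v = _
    linear_combination h5))

theorem exists_spin_comm (hQ : (ofQuad Q).Nondeg) (h7 : 7 ≤ Fintype.card ι) (h2 : (2 : F) ≠ 0) {c : Fˣ}
    (h1 : ∀ v, s.1 *ᵥ (s.1 *ᵥ v) = (c : F) • v) (hμ : Simi (ofQuad Q) (ofQuad Q) s c) :
    ∃ k : OG Q, dick k = 1 ∧ spin k = -1 ∧ s * ogl Q k = ogl Q k * s := by
  have : Nonempty ι := Fintype.card_pos_iff.1 (by omega)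
  have hs : s ∈ Sim (ofQuad Q) := mem_Sim.2 ⟨_, hμ⟩
  have hB : ∀ x y, Q.polarBilin (s.1 *ᵥ x) y = Q.polarBilin x (s.1 *ᵥ y) := fun x y =>
    mul_left_cancel₀ c.ne_zero (by
      have := hμ.B x (s.1 *ᵥ y)
      rwa [h1, B_smul_right] at this)
  have hsy : ∀ x y, Q.polarBilin y x = Q.polarBilin x y := fun x y => by simp [QuadraticMap.polar_comm]
  by_cases hq : IsSquare (c : F)
  · obtain ⟨t, ht⟩ := hq
    have ht0 : t ≠ 0 := by rintro rfl; simp at ht
    have h3 : ∀ ε : F, ε * ε = 1 → ∀ v, (ε * t⁻¹) • s.1 *ᵥ ((ε * t⁻¹) • s.1 *ᵥ v) = v := fun ε hε v => by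
      rw [mulVec_smul, h1, smul_smul, smul_smul, ht, show ε * t⁻¹ * (ε * t⁻¹) * (t * t) = ε * ε by field_simp, hε,
        one_smul]
    have key : ∀ ε : F, ε * ε = 1 → 2 ≤ finrank F (LinearMap.ker ((ε * t⁻¹) • toLin' s.1 - 1)) →
        ∃ k : OG Q, dick k = 1 ∧ spin k = -1 ∧ s * ogl Q k = ogl Q k * s := fun ε hε hd => by
      have h4 : ∀ u ∈ LinearMap.ker ((ε * t⁻¹) • toLin' s.1 - 1), (ε * t⁻¹) • s.1 *ᵥ u = u :=
        fun u hu => sub_eq_zero.1 hu
      refine exists_spin_of_sub hQ h2 hs (nondeg_fix hQ h2 (h3 ε hε) fun x y => ?_) hd (t := ε * t) fun u hu => ?_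
      · simp only [LinearMap.smul_apply, map_smul, toLin'_apply, hB]
      · conv_rhs => rw [← h4 u hu, smul_smul, show ε * t * (ε * t⁻¹) = ε * ε by field_simp, hε, one_smul]
    have h4 := Submodule.finrank_add_eq_of_isCompl (isCompl_inv h2 (S := (1 * t⁻¹) • toLin' s.1)
      (h3 1 (by simp)))
    rw [Module.finrank_fintype_fun_eq_card, show LinearMap.ker ((1 * t⁻¹) • toLin' s.1 + 1) =
      LinearMap.ker ((-1 * t⁻¹) • toLin' s.1 - 1) by rw [← LinearMap.ker_neg]; congr 1; module] at h4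
    by_cases h5 : 2 ≤ finrank F (LinearMap.ker ((1 * t⁻¹) • toLin' s.1 - 1))
    · exact key 1 (by simp) h5
    · exact key (-1) (by simp) (by omega)
  obtain ⟨v, hv, h3⟩ : ∃ v, Q.polarBilin v v ≠ 0 ∧ Q.polarBilin v (s.1 *ᵥ v) = 0 := by
    obtain ⟨p, hp0, hp⟩ := exists_sing_of_finite
      (LinearMap.BilinMap.toQuadraticMap (Q.polarBilin.compl₁₂ .id (toLin' s.1))) (by simp; omega)
    change Q.polarBilin p (s.1 *ᵥ p) = 0 at hp
    by_cases h3 : Q.polarBilin p p = 0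
    swap
    · exact ⟨p, h3, hp⟩
    obtain ⟨q, h4, h5⟩ := hQ.exists_perp_eq_one' (H := Submodule.span F {s.1 *ᵥ p}) (x := p) fun h => by
      obtain ⟨a, ha⟩ := Submodule.mem_span_singleton.1 h
      have h4 := congrArg (s.1 *ᵥ ·) ha
      simp only [mulVec_smul, h1] at h4
      rw [← h4, smul_smul, smul_smul] at ha
      have h5 : a * a * c = 1 := smul_left_injective F hp0 (ha.trans (one_smul _ _).symm)
      have h6 : a ≠ 0 := by rintro rfl; simp at h5
      exact hq ⟨a⁻¹, by field_simp; linear_combination h5⟩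
    have h4 : Q.polarBilin (s.1 *ᵥ p) q = 0 := (ofQuad Q).mem_perp_span.1 h4 _ rfl
    change Q.polarBilin p q = 1 at h5
    have hc := c.ne_zero
    have b1 := (hB p p).trans hp
    have b2 : Q.polarBilin (s.1 *ᵥ p) (s.1 *ᵥ p) = 0 := by rw [hB, h1, map_smul, h3, smul_zero]
    have b3 : Q.polarBilin (s.1 *ᵥ p) (s.1 *ᵥ q) = c := by rw [hB, h1, map_smul, h5, smul_eq_mul, mul_one]
    have b4 := (hsy _ _).trans h4
    have b5 := (hsy _ _).trans h5
    have b6 := (hB p q).symm.trans h4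
    refine ⟨q + ((1 - Q.polarBilin q q) / 2) • p + (-Q.polarBilin q (s.1 *ᵥ q) / (2 * c)) • s.1 *ᵥ p, ?_, ?_⟩
    · simp only [map_add, map_smul, LinearMap.add_apply, LinearMap.smul_apply, smul_eq_mul, h3, hp, h4, h5,
        b1, b2, b4, b5]
      exact ne_of_eq_of_ne (b := 1) (by field_simp; ring) one_ne_zero
    · simp only [mulVec_add, mulVec_smul, map_add, map_smul, LinearMap.add_apply, LinearMap.smul_apply,
        smul_eq_mul, h1, h3, hp, h5, b1, b2, b3, b4, b5, b6]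
      field_simp; ring
  have hv : Q v ≠ 0 := fun h => hv (by simp [h])
  have hw : Q (s.1 *ᵥ v) = c * Q v := hμ.Q v
  have hw0 : Q (s.1 *ᵥ v) ≠ 0 := hw ▸ mul_ne_zero c.ne_zero hv
  refine ⟨refl Q v * refl Q (s.1 *ᵥ v), ?_, ?_, ?_⟩
  · rw [dick_refl_mul hQ hv, dick_refl hQ hw0, neg_neg]
  · rw [spin_refl_mul hQ hv, spin_refl hQ hw0, hw, sqSign_mul c.ne_zero hv, mul_left_comm, Int.units_mul_self,
      mul_one, sqSign_eq_neg_one_iff.2 hq]
  · rw [← mul_inv_eq_iff_eq_mul, map_mul, show ∀ a b : GL ι F, s * (a * b) * s⁻¹ = s * a * s⁻¹ * (s * b * s⁻¹) by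
      intros; group, conj_ogl_refl hs, conj_ogl_refl hs, h1, refl_smul c.ne_zero, ← map_mul, ← map_mul,
      mul_inv_eq_iff_eq_mul.1 (conj_refl (refl Q v) (s.1 *ᵥ v)), refl_apply, show QuadraticMap.polar Q v (s.1 *ᵥ v) = 0 from h3]
    simp

theorem comm_mem_of_four {X : Type*} [Group X] {K H : Subgroup X} [K.Normal] (h : K.relIndex H = 4) {x y a : X}
    (hxy : x * y ∈ H) (ha : a ∈ H) (hc : a * x = x * a) : y⁻¹ * (a * y * a⁻¹) ∈ K := by
  have hc4 : Nat.card (H ⧸ K.subgroupOf H) = 2 ^ 2 := h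
  have h3 := (IsPGroup.isMulCommutative_of_card_eq_prime_sq hc4).is_comm.comm
    (QuotientGroup.mk ⟨_, hxy⟩) (QuotientGroup.mk ⟨_, ha⟩)
  rw [← QuotientGroup.mk_mul, ← QuotientGroup.mk_mul, QuotientGroup.eq] at h3
  have h6 := Subgroup.Normal.conj_mem inferInstance _ (show (x * y * a)⁻¹ * (a * (x * y)) ∈ K from h3) a
  rwa [← mul_assoc a x, hc, show a * ((x * y * a)⁻¹ * (x * a * y)) * a⁻¹ = y⁻¹ * (a * y * a⁻¹) by group] at h6

theorem det_sq_of_sim {W : Type*} [AddCommGroup W] [Module F W] [FiniteDimensional F W] {Φ : Formed (.id F) W}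
    (hΦ : Φ.Nondeg) (f : W →ₗ[F] W) {κ : F} (h : ∀ x y, Φ.B (f x) (f y) = κ * Φ.B x y) :
    LinearMap.det f ^ 2 = κ ^ finrank F W := by
  let b := Module.finBasis F W
  have h1 := (Φ.nondeg_iff_det_gram b).1 hΦ
  have h3 := congrArg Matrix.det (LinearMap.BilinForm.toMatrix_comp b b Φ.B f f)
  rw [show LinearMap.BilinForm.comp Φ.B f f = κ • Φ.B from LinearMap.ext₂ h, map_smul, det_smul, det_mul, det_mul,
    det_transpose, LinearMap.det_toMatrix, ← gram_eq_toMatrix, Fintype.card_fin] at h3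
  exact mul_right_cancel₀ h1 (by linear_combination -h3)

omit [Finite F] in
open Polynomial in
theorem det_of_sq_nonsq {A : Matrix ι ι F} {c : F} (hc : ¬ IsSquare c) (h : A * A = c • 1) {n : ℕ}
    (hn : Fintype.card ι = 2 * n) : A.det = (-c) ^ n := by
  have hi : Irreducible (X ^ 2 - C c) := X_pow_sub_C_irreducible_of_prime Nat.prime_two fun b hb =>
    hc ⟨b, by rw [← hb, sq]⟩
  have h1 : charmatrix A * (scalar ι X + C.mapMatrix A) = (X ^ 2 - C c) • 1 := by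
    rw [charmatrix, sub_mul, mul_add, mul_add, ← map_mul, ← map_mul, h, (scalar_commute X (fun _ => Commute.all _ _) _).eq]
    refine Matrix.ext fun i j => ?_
    by_cases hij : i = j <;> simp [hij, sq, add_sub_add_right_eq_sub, add_comm]
  have h3 := congrArg Matrix.det h1
  rw [det_mul, det_smul, det_one, mul_one] at h3
  obtain ⟨i, -, hi'⟩ := (dvd_prime_pow hi.prime _).1 (Dvd.intro _ h3)
  have h4 := eq_of_monic_of_associated (charpoly_monic A) ((monic_X_pow_sub_C c two_ne_zero).pow i) hi'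
  have h5 := congrArg natDegree h4
  rw [charpoly_natDegree_eq_dim, natDegree_pow, natDegree_X_pow_sub_C] at h5
  rw [det_eq_sign_charpoly_coeff, h4, hn, coeff_zero_eq_eval_zero, show i = n by omega]
  simp

theorem sq_of_comm (hQ : (ofQuad Q).Nondeg) (h2 : (2 : F) ≠ 0) {n : ℕ} (hn : Fintype.card ι = 2 * (2 * n))
    {c : Fˣ} (h1 : ∀ v, s.1 *ᵥ (s.1 *ᵥ v) = (c : F) • v) (hμ : Simi (ofQuad Q) (ofQuad Q) s c)
    (hd : s.1.det ≠ c ^ (2 * n)) {a : GL ι F} {κ : F} (ha : Simi (ofQuad Q) (ofQuad Q) a κ) {l : F}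
    (hl : ∀ v, a.1 *ᵥ (s.1 *ᵥ v) = l • s.1 *ᵥ (a.1 *ᵥ v)) : IsSquare κ := by
  by_cases hq : IsSquare (c : F)
  swap
  · exact absurd ((det_of_sq_nonsq hq (Matrix.ext_iff_mulVec.2 fun v => by
      simp [← mulVec_mulVec, h1, smul_mulVec]) hn).trans (by rw [pow_mul, neg_sq, pow_mul])) hd
  obtain ⟨t, ht⟩ := hq
  have ht0 : t ≠ 0 := by rintro rfl; simp at ht
  let S := -t⁻¹ • toLin' s.1
  have hS : ∀ v, S v = -t⁻¹ • s.1 *ᵥ v := fun _ => rfl
  have h3 : ∀ v, S (S v) = v := fun v => by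
    rw [hS, hS, mulVec_smul, h1, smul_smul, smul_smul, ht, show -t⁻¹ * -t⁻¹ * (t * t) = 1 by field_simp, one_smul]
  have h4 := det_inv h2 h3
  have h5 := Submodule.finrank_add_eq_of_isCompl (isCompl_inv h2 h3)
  rw [Module.finrank_fintype_fun_eq_card, hn] at h5
  rw [LinearMap.det_smul, LinearMap.det_toLin', Module.finrank_fintype_fun_eq_card, hn] at h4
  have o2 : Odd (finrank F (LinearMap.ker (S + 1))) := Nat.not_even_iff_odd.1 fun h => hd (by
    rw [h.neg_one_pow, pow_mul, neg_sq, inv_pow, inv_pow, inv_mul_eq_one₀ (by positivity)] at h4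
    rw [← h4, ht, sq])
  have hc : ∀ v, a.1 *ᵥ S v = l • S (a.1 *ᵥ v) := fun v => by rw [hS, hS, mulVec_smul, hl, smul_comm]
  have hi : Function.Injective (toLin' a.1) := fun x y h => by simpa using congrArg (a⁻¹.1 *ᵥ ·) h
  have hl2 : l * l = 1 := by
    have := Module.nontrivial_of_finrank_pos o2.pos
    obtain ⟨v, hv⟩ := exists_ne (0 : LinearMap.ker (S + 1))
    have := hc (S v)
    rw [h3, hc, map_smul, h3, smul_smul] at this
    exact (smul_left_injective F (fun h => hv (Subtype.ext (hi (h.trans (map_zero _).symm))))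
      ((one_smul _ _).trans this)).symm
  rcases mul_self_eq_one_iff.1 hl2 with rfl | rfl
  · have h6 : ∀ x ∈ LinearMap.ker (S - 1), toLin' a.1 x ∈ LinearMap.ker (S - 1) := fun x hx =>
      sub_eq_zero.2 (by simpa [show S x = x from sub_eq_zero.1 hx] using (hc x).symm)
    have h7 := det_sq_of_sim (nondeg_fix hQ h2 h3 fun x y => by
      have := hμ.B x (s.1 *ᵥ y)
      rw [h1, B_smul_right] at this
      simp only [hS, map_smul, LinearMap.smul_apply]
      exact congrArg _ (mul_left_cancel₀ c.ne_zero this)) ((toLin' a.1).restrict h6) (κ := κ) fun x y => ha.B _ _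
    obtain ⟨k, hk⟩ : Odd (finrank F (LinearMap.ker (S - 1))) := by
      rw [Nat.odd_iff] at o2 ⊢; omega
    have := ha.ne
    exact ⟨LinearMap.det ((toLin' a.1).restrict h6) / κ ^ k, by field_simp; rw [h7, hk]; ring⟩
  have h6 : ∀ {U U' : Submodule F (ι → F)}, (∀ x ∈ U, toLin' a.1 x ∈ U') → finrank F U ≤ finrank F U' :=
    fun h => LinearMap.finrank_le_finrank_of_injective (f := (toLin' a.1).restrict h) fun x y e =>
      Subtype.ext (hi (congrArg Subtype.val e))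
  have h7 := h6 (U := LinearMap.ker (S - 1)) (U' := LinearMap.ker (S + 1)) fun x hx => by
    have := hc x
    rw [show S x = x from sub_eq_zero.1 hx] at this
    change S (a.1 *ᵥ x) + a.1 *ᵥ x = 0
    nth_rw 2 [this]; simp
  have h8 := h6 (U := LinearMap.ker (S + 1)) (U' := LinearMap.ker (S - 1)) fun x hx => by
    have := hc x
    rw [show S x = -x from eq_neg_of_add_eq_zero_left hx, mulVec_neg, neg_smul, one_smul, neg_inj] at this
    exact sub_eq_zero.2 this.symm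
  rw [Nat.odd_iff] at o2; omega

theorem graph_split (E : EvO Q) (h2 : (2 : F) ≠ 0) {hs : s ∈ Sim (ofQuad Q)} (h : s ∉ E.SimP)
    (ho : (clO E.nd E.h7).theta ⟨inl s, hs⟩ ^ 2 = 1) {H : Subgroup (MulAut (POmega F ⇑Q))}
    (hH : H = (clO E.nd E.h7).inD E.SimP) {N : ℕ}
    (hN : splitClassCount H (Cfsg.Inn _) ((clO E.nd E.h7).theta ⟨inl s, hs⟩) = N) :
    (N = 1 ∨ N = 2) ∧ (negOne Q ∈ commutator (OG Q) ∨ 4 ∣ Fintype.card ι → N = 2) := by
  subst hH
  have C := clO E.nd E.h7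
  have P := E.pMod
  have := E.ne
  have hK : Cfsg.Inn (POmega F ⇑Q) ≤ C.inD E.SimP := inn_eq E.nd E.h7 ▸ C.inD_mono E.Om_le_SimP
  have key : ∀ {s : GL ι F} (hs : s ∈ Sim (ofQuad Q)), C.theta ⟨inl s, hs⟩ ∈ Cfsg.Inn (POmega F ⇑Q) ↔
      s ∈ Zs Q (commutator _) := fun hs => by
    rw [inn_eq E.nd E.h7]; exact C.theta_mem_inD scal_mem_Zs _
  suffices negOne Q ∈ commutator (OG Q) ∨ 4 ∣ Fintype.card ι → N = 2 by
    refine ⟨by_contra fun h => ?_, this⟩
    have hneg := mt (this ∘ .inl) (mt .inr h)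
    rw [splitClassCount_eq hK] at hN
    exact h ((Nat.dvd_prime Nat.prime_two).1 (hN ▸ E.relIndex_inn' h2 hneg ▸ Subgroup.relIndex_dvd_of_le_left _
      le_sup_left))
  intro hyp
  rw [← hN, ← E.relIndex_SO h2]
  obtain ⟨c, h1, hμ⟩ := selfadj_of_graph E h2 h ho
  obtain ⟨k, k1, k2, k3⟩ := exists_spin_comm E.nd E.h7 h2 h1 hμ
  refine split_eq_index P.hom P.range_hom hK _ _ (fun s hs => Om_le_SO E.nd E.h7 ((key _).1 hs))
    (fun a ha => ?_) fun a ha => ?_
  · obtain ⟨κ, hκ⟩ := mem_Sim.1 (E.SimP_le a.2)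
    have ha : C.theta ⟨inl a.1, E.SimP_le a.2⟩ * C.theta ⟨inl s, hs⟩ = C.theta ⟨inl s, hs⟩ * C.theta _ :=
      Subgroup.mem_centralizer_singleton_iff.1 ha
    refine (E.mem_SO_iff a.2 hκ).2 ?_
    obtain hneg | ⟨n, hn⟩ := hyp
    swap
    · rw [← map_mul, ← map_mul, C.pSim.eq_iff] at ha
      obtain ⟨l, hl⟩ := ha
      exact sq_of_comm E.nd h2 (n := n) (by omega) h1 hμ (by
        rwa [E.mem_SimP_iff_det h2 hμ, show Fintype.card ι / 2 = 2 * n by omega] at h) hκ (l := l) fun v => by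
          simpa [AutCl.act_mul, ← mulVec_mulVec] using congrArg (AutCl.act · v) hl
    obtain ⟨v, hv⟩ := E.exists_nonsing
    have hv0 : Q v ≠ 0 := by simp [hv]
    have hw : Q (a.1.1 *ᵥ v) = κ := by simpa [hv] using hκ.Q v
    have hr : ogl Q (refl Q v) ∈ Sim (ofQuad Q) := mem_Sim.2 ⟨_, simi_ogl _⟩
    have h6 := comm_mem_of_four (E.relIndex_inn h2 hneg) (y := C.theta ⟨inl _, hr⟩) (a := C.theta ⟨inl a.1, E.SimP_le a.2⟩) (by
      rw [← map_mul]
      exact (C.theta_mem_inD E.scal_mem_SimP (mul_mem hs hr)).2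
        ((E.mul_mem_SimP_iff hs hr).2 (iff_of_false h (E.refl_notMem_SimP hv0))))
      (P.range_hom.le ⟨a, rfl⟩) ha
    rw [← map_inv, ← map_inv, ← map_mul, ← map_mul, ← map_mul] at h6
    have h7 : (ogl Q (refl Q v))⁻¹ * (a.1 * ogl Q (refl Q v) * a.1⁻¹) ∈ Zs Q (commutator _) :=
      (key (mul_mem (inv_mem hr) (mul_mem (mul_mem (E.SimP_le a.2) hr) (inv_mem (E.SimP_le a.2))))).1 (by
        convert h6 using 2
        exact Subtype.ext (by simp [mul_assoc]))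
    rw [conj_ogl_refl (E.SimP_le a.2), ← map_inv, ← map_mul, E.ogl_mem_Om hneg, refl_inv, spin_refl_mul E.nd hv0,
      spin_refl E.nd (hw ▸ hκ.ne), hv, hw, sqSign_one, one_mul, sqSign_eq_one_iff] at h7
    exact h7.2
  · by_cases hneg : negOne Q ∈ commutator (OG Q)
    swap
    · exact ⟨1, by simp, (key _).2 (by
        rw [← E.SO_eq hneg, inv_one, mul_one]; exact ha)⟩
    obtain ⟨t, g, hg, e⟩ := ha
    have hg : dick g = 1 := hg
    have e : a.1 = _ := e
    have hsp := ((mem_commutator_iff E.nd E.hx _).1 hneg).2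
    by_cases h5 : spin g = 1
    · exact ⟨1, by simp, (key _).2 (by simpa [e] using (zs_mem_Om_iff E.nd E.h7 (fun _ => hsp) hg).2 h5)⟩
    refine ⟨⟨_, E.ogl_mem_SimP.2 k1⟩, Subgroup.mem_centralizer_singleton_iff.2 ?_, (key _).2 ⟨t, g * k⁻¹,
      mul_inv_mem_commutator E.nd E.hx (k1.trans hg.symm) (by rw [k2, Int.units_ne_iff_eq_neg.1 h5]), ?_⟩⟩
    · change C.theta _ * _ = _ * C.theta _
      rw [← map_mul, ← map_mul]
      exact congrArg _ (Subtype.ext ((map_mul inl _ _).symm.trans ((congrArg inl k3.symm).trans (map_mul _ _ _))))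
    · simp [e, mul_assoc]

theorem graph_split' (E : EvO Q) (h2 : (2 : F) ≠ 0) {n : GamS (ofQuad Q)} (h1 : n.1.right = 1)
    {γ : MulAut (POmega F ⇑Q)} (hγ : γ = (clO E.nd E.h7).theta n) {H : Subgroup (MulAut (POmega F ⇑Q))}
    (hH : H = (clO E.nd E.h7).inD E.SimP) (h : γ ∉ H) (ho : orderOf γ = 2) :
    (splitClassCount H (Cfsg.Inn _) γ = 1 ∨ splitClassCount H (Cfsg.Inn _) γ = 2) ∧
      (negOne Q ∈ commutator (OG Q) ∨ 4 ∣ Fintype.card ι → splitClassCount H (Cfsg.Inn _) γ = 2) := by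
  obtain ⟨hs, e⟩ := cl_left (clO E.nd E.h7) h1
  rw [e] at hγ
  subst hγ
  exact graph_split E h2 (mt ((clO E.nd E.h7).theta_mem_inD E.scal_mem_SimP hs).2 (hH ▸ h))
    (orderOf_dvd_iff_pow_eq_one.1 ho.dvd) hH rfl

theorem minus_right_eq_one {m : ℕ} {Q : QuadraticForm F ((Fin m ⊕ Fin m) ⊕ Fin 2 → F)} (E : EvO Q)
    (hw : (ofQuad Q).WittIndex m) {n : GamS (ofQuad Q)} (ho : orderOf ((clO E.nd E.h7).theta n) = 2) :
    n.1.right = 1 := by
  by_contra h1
  have := E.ne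
  have ho' := E.pMod.orderOf_right h1 Nat.prime_two ho
  obtain ⟨d, g, hn⟩ := E.pMod.exists_descent ho' (orderOf_dvd_iff_pow_eq_one.1 ho.dvd)
  obtain ⟨K, hf, -⟩ := exists_isFix_card n.1.right
  obtain ⟨Q₁, μ, D⟩ := hf.desc_quad E.nd (good_of_eq hn)
  rcases wittIndex_even (D.nondeg E.nd) (m := m) (by simp; ring) with h | h
  · simpa using (D.witt_half E.nd (by simp; omega) h).unique hw
  obtain ⟨a₀, b₀, hab₀⟩ := Gr.exists_aniso K
  obtain ⟨e, he⟩ := exists_isIso_minus (D.nondeg E.nd) (by simp [two_mul]) h hab₀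
  have D' := isDesc_minus (f := K.subtype) m a₀ b₀
  obtain ⟨z, hz⟩ := hf.exists_root (by rw [ho']; exact even_two) hab₀
  refine absurd (hw.unique (Simi.wittIndex (Q := qM F m _ _) (Q' := Q)
    (s := g * GeneralLinearGroup.map K.subtype ((glEquiv _ K).symm e.symm) * 1⁻¹)
    (simi_of_span (span_tw (f := K.subtype) 1) (inv_ne_zero D.ne) rfl ?_ ?_) (wittIndex_minus_of_root
      (disc_map_ne _ (disc_ne_zero_of_anisotropic hab₀)) hz))) (by simp)
  · rintro _ ⟨x, rfl⟩ _ ⟨y, rfl⟩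
    rw [mulVec_tw, mulVec_tw, eq_inv_mul_iff_mul_eq₀ D.ne, D.B, glEquiv_symm_mulVec, glEquiv_symm_mulVec,
      ← he.1, e.apply_symm_apply, e.apply_symm_apply, ← qM_eq, ← D'.B, one_mul]
  · rintro _ ⟨x, rfl⟩
    rw [mulVec_tw, eq_inv_mul_iff_mul_eq₀ D.ne, D.Q, glEquiv_symm_mulVec,
      ← he.2, e.apply_symm_apply, ← qM_eq, ← D'.Q, one_mul]

end Cfsg.Agent.Mult.Bal
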