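import Cfsg.Agent.Mult.Bal10
import Cfsg.Agent.Classical.SSConj

/-! Centralisers of semisimple elements of odd order in orthogonal groups: they contain elements of non-trivial
spinor norm (`exists_spin_odd`) and similarities with any multiplier (`exists_conj_SimP`); `odd_classes`. -/

set_option autoImplicit false

namespace Cfsg.Agent.Mult.Bal

open Cfsg.Agent.Geom Cfsg.Agent.Geom.Formed Cfsg.Agent.AutCl Module SemidirectProduct Polynomial
open Matrix hiding inv_inj mul_inv_rev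

section Gen

variable {F : Type*} [Field F] {V W : Type*} [AddCommGroup V] [Module F V] [AddCommGroup W] [Module F W]

theorem skew_sq [FiniteDimensional F W] {Φ : Formed (.id F) W} (h : Φ.Nondeg) {t : End F W}
    (ht : ∀ x, Φ.B (t x) x = 0) (hi : Function.Injective t) :
    Even (finrank F W) ∧ IsSquare (LinearMap.det t * (Φ.gram (finBasis F W)).det) := by
  let Ψ := ofAlt (LinearMap.BilinForm.compLeft Φ.B t) ht
  have h1 : Ψ.Nondeg := fun x hx =>
    hi ((h _ hx).trans (map_zero t).symm)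
  obtain ⟨m, hm⟩ := even_finrank_of_alt h1
  obtain ⟨e, he⟩ := exists_isIso_sympFormed h1 (m := m) (by omega)
  obtain ⟨u, -, hu⟩ := Ψ.det_gram_basis ((Pi.basisFun F _).map e.symm) (finBasis F W)
  rw [show Ψ.gram ((Pi.basisFun F _).map e.symm) = Matrix.J (Fin m) F from Matrix.ext fun i j => by
    refine (he.1 _ _).symm.trans ?_; simp [sympForm], SymplecticGroup.det_eq_one (SymplecticGroup.J_mem _ _),
    gram_eq_toMatrix] at hu
  refine ⟨⟨m, hm⟩, u, ?_⟩
  rw [← sq, ← mul_one (u ^ 2), ← hu, gram_eq_toMatrix]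
  change _ = (LinearMap.BilinForm.toMatrix _ (LinearMap.BilinForm.compLeft Φ.B t)).det
  rw [LinearMap.BilinForm.toMatrix_compLeft, det_mul, det_transpose, LinearMap.det_toMatrix]

theorem exists_phi (x : End F V) {p : F[X]} {v : V} (hv : aeval x p v = 0) :
    ∃ φ : AdjoinRoot p →ₗ[F] V, φ 1 = v ∧ ∀ g c, φ (AdjoinRoot.mk p g * c) = aeval x g (φ c) := by
  obtain ⟨s, hs⟩ := (AdjoinRoot.mkₐ p).toLinearMap.exists_rightInverse_of_surjective
    (LinearMap.range_eq_top.2 AdjoinRoot.mk_surjective)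
  let G : F[X] →ₗ[F] V := (LinearMap.applyₗ v).comp (aeval x).toLinearMap
  have h : ∀ g, G (s (AdjoinRoot.mk p g)) = aeval x g v := fun g => by
    obtain ⟨d, hd⟩ := AdjoinRoot.mk_eq_mk.1 (LinearMap.congr_fun hs (AdjoinRoot.mk p g))
    rw [sub_eq_iff_eq_add.1 hd, mul_comm]; simp [G, hv]
  refine ⟨G.comp s, by simpa using h 1, fun g c => ?_⟩
  obtain ⟨c, rfl⟩ := AdjoinRoot.mk_surjective c
  rw [← map_mul]
  exact (h _).trans (by rw [map_mul, End.mul_apply, ← h]; rfl)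

theorem exists_irr_ker (x : End F V) {g : F[X]} (hg : g ≠ 0) {w : V} (hw : w ≠ 0) (h : aeval x g w = 0) :
    ∃ p, Irreducible p ∧ p ∣ g ∧ ∃ v ≠ 0, aeval x p v = 0 := by
  induction g using WfDvdMonoid.induction_on_irreducible with
  | zero => exact absurd rfl hg
  | unit u hu =>
    obtain ⟨u, rfl⟩ := hu
    exact absurd (by simpa [← End.mul_apply, ← map_mul] using congrArg (aeval x (u⁻¹).1) h) hw
  | mul a i ha hi ih =>
    by_cases h1 : aeval x a w = 0
    · obtain ⟨p, h2, h3, h4⟩ := ih ha h1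
      exact ⟨p, h2, h3.mul_left _, h4⟩
    · exact ⟨i, hi, dvd_mul_right _ _, _, h1, by simpa using h⟩

theorem B_comp (Q : QuadraticForm F V) (f : W →ₗ[F] V) (x y : W) :
    (ofQuad (Q.comp f)).B x y = Q.polarBilin (f x) (f y) := by simp [QuadraticMap.polar]

variable [FiniteDimensional F V] [Finite F] {Q : QuadraticForm F V} (hQ : (ofQuad Q).Nondeg) (h2 : (2 : F) ≠ 0)
include hQ h2

theorem exists_spin_of_emb [FiniteDimensional F W] (k : OG Q) (f : W →ₗ[F] V) (hf : (ofQuad (Q.comp f)).Nondeg)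
    {k' a a' : End F W} (hk : ∀ w, k.1 (f w) = f (k' w))
    (ha : ∀ x y, Q.polarBilin (f (a' x)) (f y) = Q.polarBilin (f x) (f (a y))) (c1 : Commute a a')
    (c2 : Commute a k') (c3 : Commute a' k') (hi : Function.Injective (a - a' : End F W))
    (hd : ¬ IsSquare (LinearMap.det a)) : ∃ b : OG Q, dick b = 1 ∧ spin b = -1 ∧ k * b = b * k := by
  have hsy : ∀ x y, Q.polarBilin y x = Q.polarBilin x y := fun x y => by simp [QuadraticMap.polar_comm]
  have hB := B_comp Q f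
  have hfi : Function.Injective f := (injective_iff_map_eq_zero f).2 fun x hx => hf x fun y => by rw [hB, hx]; simp
  let A := a.equivOfDetNeZero fun h => hd (by simp [h])
  have hA : ∀ x, A x = a x := fun _ => rfl
  let u := (LinearEquiv.ofInjectiveEndo a' ((injective_iff_map_eq_zero _).2 fun x hx => hf x fun y => by
    obtain ⟨y, rfl⟩ := A.surjective y
    rw [hB, hA, ← ha, hx]; simp)).trans A.symm
  have hu : ∀ x, a (u x) = a' x := fun x => A.apply_symm_apply _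
  have hu1 : ∀ x y, Q.polarBilin (f (u x)) (f (u y)) = Q.polarBilin (f x) (f y) := fun x y => by
    obtain ⟨y, rfl⟩ := A.surjective y
    rw [show u (A y) = a' y from A.injective ((hu _).trans (LinearMap.congr_fun c1 y).symm), hsy, ha, hu, hsy, ha, hA]
  have he : (ofQuad (Q.comp f)).IsIso ((ofQuad Q).restrict (LinearMap.range f)) (LinearEquiv.ofInjective f hfi) :=
    ⟨fun x y => (hB x y).symm, fun _ => rfl⟩
  have hc := hQ.isCompl_perp (he.nondeg hf)
  let y : OG (Q.comp f) := ⟨u, mem_isom_ofQuad.2 fun x => mul_left_cancel₀ h2 (by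
    simpa [two_mul, two_smul] using hu1 x x)⟩
  let b : OG Q := ⟨sumHom hc ((he.isomCongr y).1, 1), sumHom_mem_isom _ le_rfl (he.isomCongr y).2 (one_mem _)⟩
  have b1 : ∀ w, b.1 (f w) = f (u w) := fun w => by
    simpa [y, b] using sumHom_left hc ((he.isomCongr y).1, 1) (LinearEquiv.ofInjective f hfi w)
  have b2 : ∀ v ∈ (ofQuad Q).perp (LinearMap.range f), b.1 v = v := fun v hv => sumHom_right hc _ ⟨v, hv⟩
  have ht : a * (1 - u.toLinearMap) = a - a' := LinearMap.ext fun x => by simp [hu]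
  have hi' : Function.Injective (1 - u.toLinearMap : End F W) := Function.Injective.of_comp (f := a) (by
    rwa [← ht] at hi)
  have e : ∀ w, f w - b.1 (f w) = (f ∘ₗ (1 - u.toLinearMap)) w := fun w => by simp [b1]
  have hw : WallFrame b.1 (f ∘ finBasis F W) := by
    refine ⟨?_, ?_⟩ <;> simp only [Function.comp_apply, e]
    · exact (finBasis F W).linearIndependent.map' _ (LinearMap.ker_eq_bot.2 (hfi.comp hi'))
    · rw [show (Set.range fun i => (f ∘ₗ (1 - u.toLinearMap)) (finBasis F W i)) =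
        (f ∘ₗ (1 - u.toLinearMap)) '' Set.range (finBasis F W) by rw [← Set.range_comp]; rfl, Submodule.span_image,
        Basis.span_eq]
      refine le_antisymm ?_ fun v hv => ?_
      · rintro _ ⟨w, -, rfl⟩; exact mem_mov.2 ⟨_, e w⟩
      · obtain ⟨v, rfl⟩ := mem_mov.1 hv
        obtain ⟨⟨_, w, rfl⟩, z, rfl⟩ := exists_add_of_isCompl hc v
        exact ⟨w, trivial, by simp [← e, b2 _ z.2]⟩
  obtain ⟨h3, s, h4⟩ := skew_sq hf (t := a - a') (fun x => by
    rw [hB, LinearMap.sub_apply, map_sub, map_sub, LinearMap.sub_apply, ha, hsy, sub_self]) hi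
  refine ⟨b, ?_, ?_, OG.ext fun v => ?_⟩
  · rwa [dick_eq_one_iff, ← hw.card_eq, Fintype.card_fin]
  · have h5 := hw.det_ne_zero hQ b
    rw [hw.spin_eq hQ, sqSign_eq_neg_one_iff]
    rw [show wallMat Q b.1 (f ∘ finBasis F W) = LinearMap.BilinForm.toMatrix (finBasis F W)
      (LinearMap.BilinForm.compRight (ofQuad (Q.comp f)).B (1 - u.toLinearMap)) from Matrix.ext fun i j => by
        simp [wallMat, e, hB, -ofQuad_B], LinearMap.BilinForm.toMatrix_compRight, det_mul,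
      LinearMap.det_toMatrix, ← gram_eq_toMatrix] at h5 ⊢
    rintro ⟨z, hz⟩
    have h6 : z ≠ 0 := by rintro rfl; exact h5 (by simpa using hz)
    rw [← ht, map_mul, mul_assoc, mul_comm (LinearMap.det (1 - _)), hz] at h4
    exact hd ⟨s / z, by field_simp; linear_combination h4⟩
  · obtain ⟨⟨_, w, rfl⟩, z, rfl⟩ := exists_add_of_isCompl hc v
    have h5 : k.1 z ∈ (ofQuad Q).perp (LinearMap.range f) := by
      rintro _ ⟨w, rfl⟩
      obtain ⟨w, rfl⟩ := LinearMap.injective_iff_surjective.1 (show Function.Injective k' from fun x y h =>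
        hfi (k.1.injective (by rw [hk, hk, h]))) w
      rw [← hk, k.2.1]; exact z.2 _ ⟨w, rfl⟩
    simp only [OG.mul_apply, map_add, b1, hk, b2 _ z.2, b2 _ h5]
    rw [show k' (u w) = u (k' w) from A.injective ((LinearMap.congr_fun c2 _).trans (by
      rw [End.mul_apply, hu, hA, hu]; exact (LinearMap.congr_fun c3 w).symm))]

theorem exists_spin_odd {k : OG Q} (hk : k ≠ 1) {r : ℕ} (hr : Odd r) (hr0 : (r : F) ≠ 0) (hkr : k ^ r = 1) :
    ∃ b : OG Q, dick b = 1 ∧ spin b = -1 ∧ k * b = b * k := by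
  have hsy : ∀ x y, Q.polarBilin y x = Q.polarBilin x y := fun x y => by simp [QuadraticMap.polar_comm]
  obtain ⟨n, rfl⟩ : ∃ n, r = n + 1 := ⟨r - 1, by have := hr.pos; omega⟩
  let x : End F V := k.1
  have hx : x ^ (n + 1) = 1 := (map_pow LinearEquiv.automorphismGroup.toLinearMapMonoidHom _ _).symm.trans
    (congrArg (fun g : OG Q => (g.1 : End F V)) hkr)
  have hx' : (x ^ n) ^ (n + 1) = 1 := by rw [← pow_mul, mul_comm, pow_mul, hx, one_pow]
  have adj : ∀ {y y' : End F V}, (∀ a b, Q.polarBilin (y' a) b = Q.polarBilin a (y b)) → ∀ (g : F[X]) a b,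
      Q.polarBilin (aeval y' g a) b = Q.polarBilin a (aeval y g b) := fun {y y'} h g => by
    induction g using Polynomial.induction_on with
    | C c => simp
    | add p q hp hq => simp only [map_add, LinearMap.add_apply, hp, hq, implies_true]
    | monomial m c ih =>
      intro a b
      rw [pow_succ, ← mul_assoc, map_mul, aeval_X, End.mul_apply, ih, h, mul_comm _ X, map_mul (aeval y) X, aeval_X,
        End.mul_apply]
  have a1 : ∀ a b, Q.polarBilin ((x ^ n) a) b = Q.polarBilin a (x b) := fun a b => by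
    rw [← (show Q.polarBilin (x _) (x _) = Q.polarBilin _ _ from k.2.1 ((x ^ n) a) b), ← End.mul_apply, ← pow_succ',
      hx]; rfl
  have a2 := adj a1
  have a3 := adj (y := x ^ n) (y' := x) fun a b => by rw [hsy, ← a1, hsy]
  obtain ⟨w, hw⟩ : ∃ w, w - x w ≠ 0 := by
    by_contra! h; exact hk (OG.ext fun v => (sub_eq_zero.1 (h v)).symm)
  have hS := mul_geom_sum (X : F[X]) (n + 1)
  have hsep : Separable (X ^ (n + 1) - 1 : F[X]) := separable_X_pow_sub_C 1 hr0 one_ne_zero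
  obtain ⟨p, hp, ⟨q, hq⟩, v, hv0, hv⟩ := exists_irr_ker x (g := ∑ i ∈ Finset.range (n + 1), X ^ i)
    (right_ne_zero_of_mul (hS ▸ hsep.ne_zero)) hw (by
      have := congrArg (aeval x · w) ((mul_comm _ _).trans hS)
      simp only [map_mul, End.mul_apply, map_sub, map_pow, aeval_X, map_one, hx, sub_self] at this
      rw [← neg_eq_zero, ← map_neg, neg_sub]; exact this)
  have := Fact.mk hp
  have : Module.Finite F (AdjoinRoot p) := (AdjoinRoot.powerBasis hp.ne_zero).finite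
  have : Finite (AdjoinRoot p) := Module.finite_of_finite F
  let ρ := AdjoinRoot.root p
  have hρ : ∑ i ∈ Finset.range (n + 1), ρ ^ i = 0 := by simpa using congrArg (AdjoinRoot.mk p) hq
  have hρ1 : ρ ^ (n + 1) = 1 := by simpa [hρ, sub_eq_zero] using (mul_geom_sum ρ (n + 1)).symm
  obtain ⟨κ, -, hκ⟩ := exists_not_isSquare h2
  obtain ⟨c, rfl⟩ := FiniteField.norm_surjective F (AdjoinRoot p) κ
  by_cases h1 : ∃ v, aeval x p v = 0 ∧ Q.polarBilin v v ≠ 0
  · obtain ⟨v, hv, h1⟩ := h1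
    obtain ⟨φ, e1, e2⟩ := exists_phi x hv
    have e3 : ∀ c, ∃ c', ∀ a b, Q.polarBilin (φ (c' * a)) (φ b) = Q.polarBilin (φ a) (φ (c * b)) := fun c => by
      obtain ⟨g, rfl⟩ := AdjoinRoot.mk_surjective c
      exact ⟨AdjoinRoot.mk p (g.comp (X ^ n)), fun a b => by rw [e2, e2, aeval_comp, map_pow, aeval_X, a2]⟩
    have hB := B_comp Q φ
    have hf : (ofQuad (Q.comp φ)).Nondeg := fun a ha => by_contra fun h => by
      obtain ⟨c', hc⟩ := e3 a⁻¹
      have := hc 1 a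
      rw [hsy, ← hB, ha, inv_mul_cancel₀ h, e1] at this
      exact h1 this.symm
    obtain ⟨c', hc⟩ := e3 c
    have e4 : ∀ a, φ (ρ * a) = x (φ a) := fun a => by simpa using e2 X a
    have e5 : ∀ a, φ (ρ ^ n * a) = (x ^ n) (φ a) := fun a => by simpa using e2 (X ^ n) a
    refine exists_spin_of_emb hQ h2 k φ hf (k' := Algebra.lmul F _ ρ) (a := Algebra.lmul F _ c)
      (a' := Algebra.lmul F _ c') (fun w => (e4 w).symm) hc ((Commute.all _ _).map _) ((Commute.all _ _).map _)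
      ((Commute.all _ _).map _) ?_ hκ
    rw [← map_sub]
    refine mul_right_injective₀ (sub_ne_zero.2 ?_)
    rintro rfl
    have h3 : ρ - ρ ^ n ≠ 0 := fun h => by
      obtain ⟨m, hm⟩ := hr
      have h4 : ρ ^ 2 = 1 := by rw [← hρ1, pow_succ ρ n, ← sub_eq_zero.1 h, sq]
      rw [hm, pow_succ, pow_mul, h4, one_pow, one_mul] at hρ1
      exact hr0 ((algebraMap F (AdjoinRoot p)).injective (by simpa [hρ1] using hρ))
    have h4 : c ≠ 0 := by rintro rfl; simp at hκ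
    obtain ⟨s, hs⟩ := (skew_sq hf (t := Algebra.lmul F _ (ρ - ρ ^ n)) (fun y => by
      change (ofQuad _).B ((ρ - ρ ^ n) * y) y = 0
      rw [hB, sub_mul, map_sub, map_sub, LinearMap.sub_apply, e4, e5, a1, hsy, sub_self])
      (mul_right_injective₀ h3)).2
    obtain ⟨t, ht⟩ := (skew_sq hf (t := Algebra.lmul F _ (c * (ρ - ρ ^ n))) (fun y => by
      change (ofQuad _).B (c * (ρ - ρ ^ n) * y) y = 0
      rw [hB, mul_assoc, hc, sub_mul, map_sub, map_sub, LinearMap.sub_apply, e5, a1, ← e4, mul_left_comm, ← hc y,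
        hsy, sub_self]) (mul_right_injective₀ (mul_ne_zero h4 h3))).2
    have h5 : s ≠ 0 := left_ne_zero_of_mul (hs ▸ mul_ne_zero (Algebra.norm_ne_zero_iff.2 h3)
      ((nondeg_iff_det_gram _ _).1 hf))
    rw [map_mul, map_mul, mul_assoc, hs] at ht
    exact hκ ⟨t / s, by rw [Algebra.norm_apply]; field_simp; linear_combination ht⟩
  have h3 : ∀ a b, aeval x p a = 0 → aeval x p b = 0 → Q.polarBilin a b = 0 := fun a b ha hb => by
    push Not at h1
    have := h1 (a + b) (by simp [ha, hb])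
    simp only [map_add, LinearMap.add_apply, h1 a ha, h1 b hb, hsy a b] at this
    exact mul_left_cancel₀ h2 (by linear_combination this)
  have hq' : p * (q * (X - 1)) = X ^ (n + 1) - 1 := by rw [← hS, hq]; ring
  obtain ⟨α, β, e⟩ := (hq' ▸ hsep).isCoprime
  have dec : ∀ y : End F V, y ^ (n + 1) = 1 → ∀ w, w = aeval y (β * (q * (X - 1))) w + aeval y p (aeval y α w) ∧
      aeval y p (aeval y (β * (q * (X - 1))) w) = 0 := fun y hy w => by
    rw [← End.mul_apply, ← End.mul_apply, ← map_mul, ← map_mul, ← LinearMap.add_apply, ← map_add, add_comm,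
      mul_comm p α, e, mul_left_comm, hq']
    simp [hy]
  have h4 : ∀ a b, aeval (x ^ n) p a = 0 → aeval (x ^ n) p b = 0 → Q.polarBilin a b = 0 := fun a b ha hb => by
    rw [(dec x hx b).1, map_add, ← a2 p, ha, show aeval x (β * (q * (X - 1))) b = 0 from hQ _ fun w => ?_]
    · simp
    change Q.polarBilin _ w = 0
    rw [(dec x hx w).1, map_add, h3 _ _ (dec x hx b).2 (dec x hx w).2, ← a2 p, ← End.mul_apply,
      show aeval (x ^ n) p = aeval x (p.comp (X ^ n)) by simp [aeval_comp], ← map_mul, mul_comm, map_mul,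
      End.mul_apply, aeval_comp, map_pow, aeval_X, hb]
    simp
  obtain ⟨v', hv', h5⟩ : ∃ v', aeval (x ^ n) p v' = 0 ∧ Q.polarBilin v v' ≠ 0 := by
    by_contra! h
    refine hv0 (hQ _ fun w => ?_)
    change Q.polarBilin _ w = 0
    rw [(dec _ hx' w).1, map_add, h _ (dec _ hx' w).2, ← a3 p, hv]; simp
  obtain ⟨φ, e1, e2⟩ := exists_phi x hv
  obtain ⟨ψ, e3, e4⟩ := exists_phi (x ^ n) hv'
  have e5 : ∀ a b, Q.polarBilin (φ a) (φ b) = 0 := fun a b => h3 _ _ (by simp [← e2]) (by simp [← e2])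
  have e6 : ∀ a b, Q.polarBilin (ψ a) (ψ b) = 0 := fun a b => h4 _ _ (by simp [← e4]) (by simp [← e4])
  have e7 : ∀ c a b, Q.polarBilin (φ (c * a)) (ψ b) = Q.polarBilin (φ a) (ψ (c * b)) := fun c a b => by
    obtain ⟨g, rfl⟩ := AdjoinRoot.mk_surjective c
    rw [e2, e4, a3]
  have e8 : ∀ a, a ≠ 0 → Q.polarBilin (φ a) (ψ a⁻¹) ≠ 0 := fun a ha => by
    rwa [← mul_one a⁻¹, ← e7, inv_mul_cancel₀ ha, e1, e3]
  have hc1 : c - 1 ≠ 0 := fun h => hκ (by simp [sub_eq_zero.1 h])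
  refine exists_spin_of_emb hQ h2 k (φ.coprod ψ) (fun a ha => ?_)
    (k' := (Algebra.lmul F _ ρ).prodMap (Algebra.lmul F _ (ρ ^ n))) (a := (Algebra.lmul F _ c).prodMap .id)
    (a' := LinearMap.id.prodMap (Algebra.lmul F _ c)) (fun w => ?_) (fun a b => ?_) rfl ?_ ?_ ?_
    (by rwa [LinearMap.det_prodMap, LinearMap.det_id, mul_one])
  · have hB : ∀ y : _ × _, Q.polarBilin (φ a.1 + ψ a.2) (φ y.1 + ψ y.2) = 0 := fun y =>
      (B_comp Q _ a y).symm.trans (ha y)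
    refine Prod.ext (by_contra fun h => e8 _ h ?_) (by_contra fun h => e8 _ (inv_ne_zero h) ?_)
    · simpa [e6, -QuadraticMap.polarBilin_apply_apply] using hB (0, a.1⁻¹)
    · simpa [e5, hsy (φ _) (ψ _), -QuadraticMap.polarBilin_apply_apply] using hB (a.2⁻¹, 0)
  · change x (φ w.1 + ψ w.2) = φ (ρ * w.1) + ψ (ρ ^ n * w.2)
    have := e4 X (ρ ^ n * w.2)
    rw [AdjoinRoot.mk_X, ← mul_assoc, ← pow_succ', hρ1, one_mul, aeval_X] at this
    rw [map_add, this, ← End.mul_apply x (x ^ n), ← pow_succ', hx]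
    simpa using (e2 X w.1).symm
  · change Q.polarBilin (φ a.1 + ψ (c * a.2)) (φ b.1 + ψ b.2) = Q.polarBilin (φ a.1 + ψ a.2) (φ (c * b.1) + ψ b.2)
    simp only [map_add, LinearMap.add_apply, e5, e6, hsy (φ _) (ψ _), e7]
  · exact LinearMap.ext fun w => Prod.ext (mul_left_comm c ρ w.1) rfl
  · exact LinearMap.ext fun w => Prod.ext rfl (mul_left_comm c (ρ ^ n) w.2)
  · refine (injective_iff_map_eq_zero _).2 fun w hw => Prod.ext (mul_left_cancel₀ hc1 ?_) (mul_left_cancel₀ hc1 ?_)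
    · simpa [sub_mul] using congrArg Prod.fst hw
    · simpa [sub_mul, sub_eq_zero, eq_comm] using congrArg Prod.snd hw

end Gen

variable {ι : Type} [Fintype ι] [DecidableEq ι] {F : Type*} [Field F] [Finite F] {Q : QuadraticForm F (ι → F)}
  {k : OG Q} {r : ℕ} (hr : Odd r) (hr0 : (r : F) ≠ 0) (hkr : k ^ r = 1) {s : GL ι F}
include hr hr0 hkr

theorem exists_conj_sim (hQ : (ofQuad Q).Nondeg) (hs : s ∈ Sim (ofQuad Q)) :
    ∃ g : OG Q, s * ogl Q k * s⁻¹ = ogl Q (g * k * g⁻¹) := by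
  obtain ⟨κ, hκ⟩ := mem_Sim.1 hs
  obtain ⟨y, hy⟩ := Simi.exists_ogl (s := s * ogl Q k * s⁻¹) (t := 1) (by
    simpa [hκ.ne] using (hκ.mul (simi_ogl k)).mul hκ.inv)
  rw [scal_one, one_mul] at hy
  obtain ⟨g, hg⟩ := isConj_iff.1 ((Classical.isConj_iff_of_odd hQ hr hr0 hkr (y := y)).2 ⟨glEquiv ι F s, fun v => by
    simpa [← mulVec_mulVec] using congrArg (fun a : GL ι F => a.1 *ᵥ v) (mul_inv_eq_iff_eq_mul.1 hy)⟩)
  exact ⟨g, hg ▸ hy⟩

theorem exists_conj_SimP (E : EvO Q) (h2 : (2 : F) ≠ 0) (hk : k ≠ 1) (hs : s ∈ E.SimP) :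
    ∃ g ∈ commutator (OG Q), s * ogl Q k * s⁻¹ = ogl Q (g * k * g⁻¹) := by
  suffices ∃ g, dick g = 1 ∧ s * ogl Q k * s⁻¹ = ogl Q (g * k * g⁻¹) by
    obtain ⟨g, h1, e⟩ := this
    obtain ⟨b, b1, b2, b3⟩ := exists_spin_odd E.nd h2 hk hr hr0 hkr
    by_cases h3 : spin g = 1
    · exact ⟨g, (mem_commutator_iff E.nd E.hx _).2 ⟨h1, h3⟩, e⟩
    · exact ⟨g * b⁻¹, mul_inv_mem_commutator E.nd E.hx (b1.trans h1.symm) (by
        rw [b2, Int.units_ne_iff_eq_neg.1 h3]), by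
        rw [e, mul_assoc g b⁻¹, _root_.mul_inv_rev, inv_inv, ← mul_assoc, mul_assoc g (b⁻¹ * k), mul_assoc b⁻¹, b3,
          inv_mul_cancel_left]⟩
  obtain ⟨g, e⟩ := exists_conj_sim hr hr0 hkr E.nd (E.SimP_le hs)
  by_cases h1 : dick g = 1
  · exact ⟨g, h1, e⟩
  have hk1 : k.1 ^ r = 1 := congrArg Subtype.val hkr
  by_cases h3 : fixS k.1 = ⊥
  swap
  · obtain ⟨v, hv, h4⟩ := exists_nonsing (perp_mov E.nd k.2 ▸ E.nd.restrict_perp
      (Classical.nondeg_mov E.nd k.2 (Classical.disjoint_mov_fixS hr0 hk1))) h3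
    have h5 := mul_inv_eq_iff_eq_mul.1 (conj_refl k v)
    rw [mem_fixS.1 hv] at h5
    exact ⟨g * refl Q v, by rw [dick_mul E.nd E.hx, dick_refl E.nd h4, Int.units_ne_iff_eq_neg.1 h1]; simp, by
      rw [e, mul_assoc g (refl Q v), ← h5]; congr 1; group⟩
  have hg : (ogl Q g)⁻¹ ∈ Sim (ofQuad Q) := inv_mem (mem_Sim.2 ⟨_, simi_ogl g⟩)
  obtain ⟨κ, hκ⟩ := mem_Sim.1 (mul_mem hg (E.SimP_le hs))
  have hc : ∀ v, ((ogl Q g)⁻¹ * s).1 *ᵥ k.1 v = k.1 (((ogl Q g)⁻¹ * s).1 *ᵥ v) := fun v => by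
    rw [← ogl_mulVec, ← ogl_mulVec, mulVec_mulVec, mulVec_mulVec, ← Units.val_mul, ← Units.val_mul, mul_assoc,
      mul_inv_eq_iff_eq_mul.1 e]
    simp [mul_assoc]
  obtain ⟨m, hm⟩ := E.ev
  have hsy : ∀ x y, Q.polarBilin y x = Q.polarBilin x y := fun x y => by simp [QuadraticMap.polar_comm]
  have h4 := Gr.alt_det (B := Q.polarBilin.compl₁₂ k.1.toLinearMap .id - Q.polarBilin.compl₁₂ .id k.1.toLinearMap)
    ⟨fun x hx => ?_, Or.inr fun x y => ?_⟩ (fun x => sub_eq_zero.2 (hsy _ _)) (m := m) (by omega) hκ.ne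
    (h := (ogl Q g)⁻¹ * s) fun x y => ?_
  · rw [show m = Fintype.card ι / 2 by omega, ← E.mem_SimP_iff_det h2 hκ, E.mul_mem_SimP_iff hg (E.SimP_le hs),
      inv_mem_iff, E.ogl_mem_SimP] at h4
    exact absurd (h4.2 hs) h1
  · refine (Submodule.eq_bot_iff _).1 h3 x (mem_fixS.2 (Classical.eq_of_sq_of_odd hr hk1 (sub_eq_zero.1
      (E.nd _ fun y => ?_))))
    obtain ⟨y, rfl⟩ := k.1.surjective y
    rw [B_sub_left, k.2.1]; exact hx y
  · exact (congrArg₂ _ (hsy _ _) (hsy _ _)).trans (neg_sub _ _).symm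
  · change Q.polarBilin (k.1 _) _ - Q.polarBilin _ (k.1 _) = κ * (Q.polarBilin _ _ - Q.polarBilin _ _)
    rw [← hc, ← hc, mul_sub]
    exact congrArg₂ _ (hκ.B _ _) (hκ.B _ _)

omit hr0 hkr in
theorem exists_lift_odd (E : EvO Q) {x : MulAut (POmega F ⇑Q)} (hx : x ∈ (clO E.nd E.h7).inD (Sim (ofQuad Q)))
    (ho : x ^ r = 1) :
    ∃ k : OG Q, k ^ r = 1 ∧ x = (clO E.nd E.h7).theta ⟨inl (ogl Q k), mem_Sim.2 ⟨_, simi_ogl k⟩⟩ := by
  have C := clO E.nd E.h7
  have := E.ne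
  obtain ⟨j, hj⟩ := hr
  have h3 : x ^ 4 ∈ C.inD (Zs Q (commutator _)) := by
    obtain ⟨s, -, hs, rfl⟩ := C.mem_inD.1 hx
    exact C.mem_inD.2 ⟨_, pow_four_mem E.nd E.h7 hs, pow_mem hs 4, (map_pow C.theta _ 4).symm.trans
      (congrArg _ (Subtype.ext (map_pow inl _ _).symm))⟩
  have aux : ∀ {G : Type _} [Group G] {x : G}, x ^ r = 1 → (x ^ 4) ^ ((j + 1) * (j + 1)) = x ∧ x = x ^ (r + 1) :=
    fun h => by
      rw [← pow_mul, show 4 * ((j + 1) * (j + 1)) = r * (r + 2) + 1 by rw [hj]; ring, pow_succ, pow_mul, pow_succ _ r,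
        h]; simp
  have h4 := pow_mem h3 ((j + 1) * (j + 1))
  rw [(aux ho).1, ← inD_map E.nd E.h7] at h4
  obtain ⟨_, ⟨g, -, rfl⟩, hs, rfl⟩ := C.mem_inD.1 h4
  obtain ⟨c, hc⟩ := (C.pSim.ker (⟨inl (ogl Q g), hs⟩ ^ r)).1 (by rw [map_pow]; exact ho)
  have h5 := eq_of_zs_eq E.nd (t := c) (t' := 1) (g := 1) (g' := g ^ r) (by
    rw [map_one, mul_one, scal_one, one_mul, map_pow]; exact (inl_injective ((map_pow _ _ _).trans hc)).symm)
  refine ⟨g ^ (r + 1), ?_, ?_⟩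
  · rw [← pow_mul, mul_comm, pow_mul, show r + 1 = 2 * (j + 1) by omega, pow_mul, sq]
    rcases h5 with h | h <;> simp [h, negOne_mul_self]
  · exact (aux ho).2.trans ((map_pow C.theta _ _).symm.trans (congrArg _ (Subtype.ext (by simp))))

omit hr hr0 hkr in
theorem conj_inD_iff (E : EvO Q) {A : Subgroup (OG Q)} {S : Subgroup (GL ι F)} (hS : Zs Q A ≤ S)
    (h : ∀ s ∈ S, ∃ g ∈ A, s * ogl Q k * s⁻¹ = ogl Q (g * k * g⁻¹)) (hk) (y) :
    IsConjUnder ((clO E.nd E.h7).inD (Zs Q A)) ((clO E.nd E.h7).theta ⟨inl (ogl Q k), hk⟩) y ↔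
      IsConjUnder ((clO E.nd E.h7).inD S) ((clO E.nd E.h7).theta ⟨inl (ogl Q k), hk⟩) y := by
  have C := clO E.nd E.h7
  refine ⟨fun ⟨a, ha, e⟩ => ⟨a, C.inD_mono hS ha, e⟩, ?_⟩
  rintro ⟨a, ha, rfl⟩
  obtain ⟨s, hs, hs', rfl⟩ := C.mem_inD.1 ha
  obtain ⟨g, hg, e'⟩ := h s hs
  refine ⟨_, C.mem_inD.2 ⟨_, ogl_mem_Zs hg, mem_Sim.2 ⟨_, simi_ogl g⟩, rfl⟩, ?_⟩
  rw [← map_inv, ← map_inv, ← map_mul, ← map_mul, ← map_mul, ← map_mul]
  exact congrArg _ (Subtype.ext (by simpa using congrArg (inl (φ := glField)) e'))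

omit hkr in
theorem odd_classes (E : EvO Q) (h2 : (2 : F) ≠ 0) {x : MulAut (POmega F ⇑Q)} (hx : x ∈ pgoAut F ⇑Q)
    (h1 : r ≠ 1) (ho : orderOf x = r) {H : Subgroup (MulAut (POmega F ⇑Q))} (hH : H = (clO E.nd E.h7).inD E.SimP) :
    (∀ y, (IsConjUnder (Cfsg.Inn _) x y ↔ IsConjUnder H x y) ∧
      (IsConjUnder (psoAut F ⇑Q) x y ↔ IsConjUnder H x y)) ∧
      ∀ y, IsConjUnder (poAut F ⇑Q) x y ↔ IsConjUnder (pgoAut F ⇑Q) x y := by
  rw [pgoAut_eq E.nd E.h7] at hx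
  obtain ⟨k, hkr, rfl⟩ := exists_lift_odd hr E hx (orderOf_dvd_iff_pow_eq_one.1 ho.dvd)
  have hk : k ≠ 1 := by
    rintro rfl
    exact h1 (ho.symm.trans (orderOf_eq_one_iff.2 ((congrArg _ (Subtype.ext (by simp))).trans (map_one _))))
  rw [hH, inn_eq E.nd E.h7, psoAut_eq E.nd E.h7 h2, poAut_eq E.nd E.h7, pgoAut_eq E.nd E.h7]
  refine ⟨fun y => ⟨conj_inD_iff E E.Om_le_SimP (fun s => exists_conj_SimP hr hr0 hkr E h2 hk) _ y,
    conj_inD_iff E E.Zs_le_SimP (fun s hs => ?_) _ y⟩,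
    conj_inD_iff E Zs_le_Sim (fun s hs => (exists_conj_sim hr hr0 hkr E.nd hs).imp fun g h => ⟨Subgroup.mem_top g, h⟩) _⟩
  exact (exists_conj_SimP hr hr0 hkr E h2 hk hs).imp fun g h => ⟨((mem_commutator_iff E.nd E.hx _).1 h.1).1, h.2⟩

end Cfsg.Agent.Mult.Bal
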