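import Mathlib.Algebra.MonoidAlgebra.Module
import Mathlib.LinearAlgebra.Matrix.Rank
import Mathlib.Algebra.Polynomial.Roots
import Mathlib.LinearAlgebra.Matrix.Polynomial
import Cfsg.Agent.Char.Central
import Cfsg.Agent.CharDeep.Ind
import Cfsg.Prelude.Def_ParabolicCharacters

/-! Characters on the complex group algebra (`HkA.ch`), the averaging map `HkA.Z`, the idempotent
`HkA.e B`, the constituents of `1_B^G` (`HkA.const_iff`), and lower semicontinuity of the rank of
a polynomial matrix (`finite_rank_lt`). -/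

set_option autoImplicit false

attribute [-simp] zsmul_eq_mul

open scoped ComplexConjugate _root_.Classical
open MonoidAlgebra

namespace Cfsg.Agent.Mult

open Cfsg Cfsg.Agent.Char Cfsg.Agent.CharDeep

/-- Lower semicontinuity of the rank. -/
theorem finite_rank_lt {m n : Type*} [Fintype m] [Fintype n] (P : Matrix m n (Polynomial ℂ))
    (a : ℂ) : {c : ℂ | (P.map (Polynomial.eval c)).rank < (P.map (Polynomial.eval a)).rank}.Finite := by
  set f := (P.map (Polynomial.eval a)).mulVecLin with hf
  set r := (P.map (Polynomial.eval a)).rank with hr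
  have hr' : Module.finrank ℂ (LinearMap.range f) = Module.finrank ℂ (Fin r → ℂ) := by
    rw [Module.finrank_fin_fun]; rfl
  let b : (LinearMap.range f) ≃ₗ[ℂ] (Fin r → ℂ) := LinearEquiv.ofFinrankEq _ _ hr'
  obtain ⟨g, hg⟩ := LinearMap.exists_leftInverse_of_injective (LinearMap.range f).subtype
    (Submodule.ker_subtype _)
  obtain ⟨h, hh⟩ := LinearMap.exists_rightInverse_of_surjective f.rangeRestrict
    (LinearMap.range_rangeRestrict f)
  let A : Matrix (Fin r) m ℂ := LinearMap.toMatrix' (b.toLinearMap ∘ₗ g)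
  let B : Matrix n (Fin r) ℂ := LinearMap.toMatrix' (h ∘ₗ b.symm.toLinearMap)
  have hAB : A * P.map (Polynomial.eval a) * B = 1 := by
    have e1 : P.map (Polynomial.eval a) = LinearMap.toMatrix' f := by
      rw [hf, ← Matrix.toLin'_apply', LinearMap.toMatrix'_toLin']
    rw [e1, ← LinearMap.toMatrix'_comp, ← LinearMap.toMatrix'_comp, ← LinearMap.toMatrix'_id]
    congr 1
    refine LinearMap.ext fun x => ?_
    have e2 : f (h (b.symm x)) = ((b.symm x : LinearMap.range f) : m → ℂ) :=
      congrArg Subtype.val (LinearMap.congr_fun hh (b.symm x))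
    have e3 : g ((b.symm x : LinearMap.range f) : m → ℂ) = b.symm x :=
      LinearMap.congr_fun hg (b.symm x)
    simp only [LinearMap.comp_apply, LinearEquiv.coe_coe, e2, e3, LinearEquiv.apply_symm_apply,
      LinearMap.id_apply]
  let d : Polynomial ℂ := (A.map Polynomial.C * P * B.map Polynomial.C).det
  have hd : ∀ c, d.eval c = (A * P.map (Polynomial.eval c) * B).det := by
    intro c
    have := (Polynomial.evalRingHom c).map_det (A.map Polynomial.C * P * B.map Polynomial.C)
    simp only [Polynomial.coe_evalRingHom, RingHom.mapMatrix_apply] at this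
    rw [this]
    congr 1
    rw [← Polynomial.coe_evalRingHom, Matrix.map_mul, Matrix.map_mul, Matrix.map_map,
      Matrix.map_map]
    congr 2 <;> ext i j <;> simp
  have hd0 : d ≠ 0 := by
    intro h0
    have := hd a
    rw [h0, hAB] at this
    simp at this
  refine (Polynomial.finite_setOfPred_isRoot hd0).subset fun c hc => ?_
  by_contra hn
  have h1 : (A * P.map (Polynomial.eval c) * B).det ≠ 0 := by rw [← hd]; exact hn
  have h2 : (A * P.map (Polynomial.eval c) * B).rank = r := by
    rw [Matrix.rank_of_isUnit _ ((Matrix.isUnit_iff_isUnit_det _).2 (Ne.isUnit h1)),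
      Fintype.card_fin]
  have h3 := (Matrix.rank_mul_le_left (A * P.map (Polynomial.eval c)) B).trans
    (Matrix.rank_mul_le_right A _)
  have hc' : (P.map (Polynomial.eval c)).rank < r := hc
  omega

namespace HkA

variable {G : Type*} [Group G] [Fintype G]

/-- The linear extension of a function to the group algebra. -/
noncomputable def ch (χ : G → ℂ) : MonoidAlgebra ℂ G →ₗ[ℂ] ℂ :=
  Finsupp.linearCombination ℂ χ ∘ₗ (coeffLinearEquiv ℂ).toLinearMap

omit [Group G] [Fintype G] in
theorem ch_single (χ : G → ℂ) (g : G) (r : ℂ) : ch χ (single g r) = r * χ g := by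
  simp [ch]

omit [Group G] in
theorem ch_apply (χ : G → ℂ) (y : MonoidAlgebra ℂ G) : ch χ y = ∑ g, y.coeff g * χ g := by
  induction y using MonoidAlgebra.induction_linear with
  | zero => simp
  | add x y hx hy => simp [hx, hy, add_mul, Finset.sum_add_distrib]
  | single g r => simp [ch_single, Finsupp.single_apply]

omit [Fintype G] in
theorem ch_character {V : Type*} [AddCommGroup V] [Module ℂ V] (ρ : Representation ℂ G V)
    (y : MonoidAlgebra ℂ G) : ch ρ.character y = LinearMap.trace ℂ V (ρ.asAlgebraHom y) := by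
  induction y using MonoidAlgebra.induction_linear with
  | zero => simp
  | add x y hx hy => simp [hx, hy]
  | single g r => simp [ch_single, Representation.character]

omit [Fintype G] in
theorem ch_comm {χ : G → ℂ} (h : IsCharacter G χ) (x y : MonoidAlgebra ℂ G) :
    ch χ (x * y) = ch χ (y * x) := by
  obtain ⟨n, ρ, rfl⟩ := h
  rw [ch_character, ch_character, map_mul ρ.asAlgebraHom, map_mul ρ.asAlgebraHom,
    LinearMap.trace_mul_comm]

omit [Fintype G] in
theorem ch_idem {χ : G → ℂ} (h : IsCharacter G χ) {e : MonoidAlgebra ℂ G} (he : e * e = e)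
    (h0 : ch χ e = 0) (x : MonoidAlgebra ℂ G) : ch χ (e * x) = 0 := by
  obtain ⟨n, ρ, rfl⟩ := h
  have h1 : IsIdempotentElem (ρ.asAlgebraHom e) := by
    unfold IsIdempotentElem; rw [← map_mul, he]
  rw [ch_character] at h0
  rw [ch_character, map_mul ρ.asAlgebraHom,
    LinearMap.IsIdempotentElem.eq_zero_of_trace_eq_zero h1 h0, zero_mul, map_zero]

theorem eq_zero_of_ch {y : MonoidAlgebra ℂ G}
    (h : ∀ χ, IsIrrCharacter G χ → ∀ x, ch χ (y * x) = 0) : y = 0 := by
  have key : ∀ z : MonoidAlgebra ℂ G, ∑ χ : IrrCharacter G, (χ : G → ℂ) 1 * ch χ z =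
      Nat.card G * z.coeff 1 := by
    intro z
    simp only [ch_apply, Finset.mul_sum]
    rw [Finset.sum_comm]
    simp only [mul_left_comm _ (z.coeff _), ← Finset.mul_sum, sum_irr_degree_mul_eq_ite]
    simp [mul_comm]
  ext g
  have h1 := key (y * single g⁻¹ 1)
  rw [Finset.sum_eq_zero fun χ _ => by rw [h χ χ.2, mul_zero]] at h1
  have h2 : (Nat.card G : ℂ) ≠ 0 := by exact_mod_cast Nat.card_pos.ne'
  have h3 := (mul_eq_zero.1 h1.symm).resolve_left h2
  rw [coeff_mul_single_apply] at h3
  simpa using h3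

/-- The sum of the conjugates. -/
noncomputable def Z (y : MonoidAlgebra ℂ G) : MonoidAlgebra ℂ G :=
  ∑ g : G, single g 1 * y * single g⁻¹ 1

theorem Z_comm (y x : MonoidAlgebra ℂ G) : Z y * x = x * Z y := by
  induction x using MonoidAlgebra.induction_linear with
  | zero => simp
  | add x z hx hz => rw [mul_add, add_mul, hx, hz]
  | single h r =>
    unfold Z
    rw [Finset.sum_mul, Finset.mul_sum]
    refine Fintype.sum_equiv (Equiv.mulLeft h⁻¹) _ _ fun g => ?_
    have e1 : (single h r : MonoidAlgebra ℂ G) = r • single h 1 := by simp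
    rw [e1]
    simp only [mul_smul_comm, smul_mul_assoc, Equiv.coe_mulLeft, mul_assoc, single_mul_single]
    simp only [← mul_assoc, single_mul_single]
    simp

theorem ch_Z {χ : G → ℂ} (h : IsIrrCharacter G χ) (y x : MonoidAlgebra ℂ G) :
    ch χ (Z y * x) = Nat.card G * ch χ y * ch χ x / χ 1 := by
  rw [Z_comm]
  induction x using MonoidAlgebra.induction_linear with
  | zero => simp
  | add x z hx hz => rw [add_mul, map_add, hx, hz, map_add]; ring
  | single a r =>
    induction y using MonoidAlgebra.induction_linear with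
    | zero => simp [Z]
    | add x z hx hz =>
      have : Z (x + z) = Z x + Z z := by simp [Z, mul_add, add_mul, Finset.sum_add_distrib]
      rw [this, mul_add, map_add, hx, hz, map_add]; ring
    | single b s =>
      simp only [Z, Finset.mul_sum, map_sum, single_mul_single, ch_single]
      rw [← Finset.mul_sum, h.sum_mul_conj_eq]
      ring

/-- The idempotent of a subgroup. -/
noncomputable def e (B : Subgroup G) : MonoidAlgebra ℂ G :=
  (Nat.card B : ℂ)⁻¹ • ∑ b : B, single (b : G) 1

theorem card_ne (B : Subgroup G) : (Nat.card B : ℂ) ≠ 0 := by exact_mod_cast Nat.card_pos.ne'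

theorem single_mul_e (B : Subgroup G) {b : G} (hb : b ∈ B) : single b 1 * e B = e B := by
  unfold e
  rw [mul_smul_comm, Finset.mul_sum]
  congr 1
  refine Fintype.sum_equiv (Equiv.mulLeft (⟨b, hb⟩ : B)) _ _ fun g => ?_
  simp [single_mul_single]

theorem e_mul_single (B : Subgroup G) {b : G} (hb : b ∈ B) : e B * single b 1 = e B := by
  unfold e
  rw [smul_mul_assoc, Finset.sum_mul]
  congr 1
  refine Fintype.sum_equiv (Equiv.mulRight (⟨b, hb⟩ : B)) _ _ fun g => ?_
  simp [single_mul_single]

theorem e_mul_e (B : Subgroup G) : e B * e B = e B := by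
  nth_rewrite 1 [e]
  rw [smul_mul_assoc, Finset.sum_mul, Finset.sum_congr rfl fun b _ => single_mul_e B b.2, Finset.sum_const, Finset.card_univ,
    ← Nat.card_eq_fintype_card, ← Nat.cast_smul_eq_nsmul ℂ, smul_smul,
    inv_mul_cancel₀ (card_ne B), one_smul]

theorem const_iff (B : Subgroup G) {χ : G → ℂ} (h : IsIrrCharacter G χ) :
    (∃ φ : G → ℂ, IsCharacter G φ ∧ fixedPointCharacter B = χ + φ) ↔ ch χ (e B) ≠ 0 := by
  have h1 : fixedPointCharacter B = indFun B (fun _ => 1) := by
    funext g; rw [indFun_one_eq_card_fixedBy]; rfl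
  have h2 : IsCharacter G (fixedPointCharacter B) := isCharacter_card_fixedBy (G ⧸ B)
  have h3 : classInner (fixedPointCharacter B) χ = conj (ch χ (e B)) := by
    rw [h1, classInner_indFun_left B _ h.isClassFunction]
    simp [classInner, e, ch_single]
  constructor
  · rintro ⟨φ, hφ, e1⟩ h0
    rw [h0, map_zero, e1, classInner_add_left, h.classInner_self] at h3
    obtain ⟨n, hn⟩ := hφ.exists_nat_classInner h.isCharacter
    rw [hn] at h3
    have h4 : ((1 + n : ℕ) : ℂ) = 0 := by push_cast; exact h3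
    have h5 := Nat.cast_eq_zero.1 h4
    omega
  · intro h0
    exact h2.exists_add_of_classInner_ne_zero h (by rw [h3]; simpa using h0)

theorem Z_mul_eq_zero {ε y : MonoidAlgebra ℂ G} (he : ε * ε = ε) :
    Z y * ε = 0 ↔ ∀ χ, IsIrrCharacter G χ → ch χ ε ≠ 0 → ch χ y = 0 := by
  have hG : (Nat.card G : ℂ) ≠ 0 := by exact_mod_cast Nat.card_pos.ne'
  constructor
  · intro h χ hχ h0
    have h1 := ch_Z hχ y ε
    rw [h, map_zero, eq_comm, div_eq_zero_iff, mul_eq_zero, mul_eq_zero] at h1
    have := hχ.apply_one_ne_zero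
    tauto
  · intro h
    refine eq_zero_of_ch fun χ hχ x => ?_
    rw [mul_assoc, ch_Z hχ]
    by_cases h0 : ch χ ε = 0
    · rw [ch_idem hχ.isCharacter he h0]; simp
    · rw [h χ hχ h0]; simp

theorem eq_zero_of_Z_mul {ε y : MonoidAlgebra ℂ G} (he : ε * ε = ε) (hy : ε * y = y)
    (h : Z ε * y = 0) : y = 0 := by
  have hG : (Nat.card G : ℂ) ≠ 0 := by exact_mod_cast Nat.card_pos.ne'
  refine eq_zero_of_ch fun χ hχ x => ?_
  by_cases h0 : ch χ ε = 0
  · rw [← hy, mul_assoc, ch_idem hχ.isCharacter he h0]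
  · have h1 := ch_Z hχ ε (y * x)
    rw [← mul_assoc, h, zero_mul, map_zero, eq_comm, div_eq_zero_iff, mul_eq_zero,
      mul_eq_zero] at h1
    have := hχ.apply_one_ne_zero
    tauto

theorem rank_eq_card {W : Type*} [Fintype W] {ε : MonoidAlgebra ℂ G} (he : ε * ε = ε)
    (j : (W → ℂ) →ₗ[ℂ] MonoidAlgebra ℂ G) (hj : Function.Injective j)
    (hs : ∀ x, ∃ c, j c = ε * x * ε) (P : Matrix W W ℂ) {a : ℂ} (ha : a ≠ 0)
    (hP : ∀ c, j (P.mulVec c) = a • (Z (j c) * ε)) :
    P.rank = Nat.card {χ : IrrCharacter G // ch χ ε ≠ 0} := by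
  have hG : (Nat.card G : ℂ) ≠ 0 := by exact_mod_cast Nat.card_pos.ne'
  let Φ : (W → ℂ) →ₗ[ℂ] ({χ : IrrCharacter G // ch χ ε ≠ 0} → ℂ) :=
    LinearMap.pi fun χ => ch χ.1.1 ∘ₗ j
  have hΦ : ∀ c χ, Φ c χ = ch χ.1.1 (j c) := fun _ _ => rfl
  have hk : LinearMap.ker P.mulVecLin = LinearMap.ker Φ := by
    ext c
    rw [LinearMap.mem_ker, LinearMap.mem_ker, Matrix.mulVecLin_apply, ← hj.eq_iff, hP, map_zero,
      smul_eq_zero, or_iff_right ha, Z_mul_eq_zero he, funext_iff]
    exact ⟨fun h χ => h χ.1.1 χ.1.2 χ.2, fun h χ hχ h0 => h ⟨⟨χ, hχ⟩, h0⟩⟩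
  have hr : LinearMap.range Φ = ⊤ := by
    rw [eq_top_iff, ← (Pi.basisFun ℂ _).span_eq, Submodule.span_le]
    rintro _ ⟨ψ, rfl⟩
    obtain ⟨c, hc⟩ := hs (∑ g, single g (conj (ψ.1.1 g)))
    have hψ1 := ψ.1.2.apply_one_ne_zero
    refine ⟨(ψ.1.1 1 / (Nat.card G * ch ψ.1.1 ε)) • c, ?_⟩
    funext χ
    rw [map_smul, Pi.smul_apply, hΦ, hc, ch_comm χ.1.2.isCharacter, ← mul_assoc, he,
      ch_comm χ.1.2.isCharacter]
    have h1 : ∀ x : MonoidAlgebra ℂ G, ch χ.1.1 ((∑ g, single g (conj (ψ.1.1 g))) * x) =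
        if χ.1.1 = ψ.1.1 then Nat.card G * ch χ.1.1 x / χ.1.1 1 else 0 := by
      intro x
      induction x using MonoidAlgebra.induction_linear with
      | zero => simp
      | add x z hx hz => rw [mul_add, map_add, hx, hz, map_add]; split_ifs <;> ring
      | single a r =>
        simp only [Finset.sum_mul, map_sum, single_mul_single, ch_single]
        simp only [mul_comm _ r, mul_assoc, ← Finset.mul_sum,
          χ.1.2.sum_conj_mul_apply_mul ψ.1.2]
        split_ifs <;> ring
    rw [h1, Pi.basisFun_apply]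
    by_cases h2 : χ = ψ
    · subst h2
      have := χ.2
      simp only [if_true, Pi.single_eq_same, smul_eq_mul]
      field_simp
    · rw [if_neg fun h => h2 (Subtype.ext (Subtype.ext h)), Pi.single_eq_of_ne h2, smul_zero]
  have h1 := LinearMap.finrank_range_add_finrank_ker P.mulVecLin
  have h2 := LinearMap.finrank_range_add_finrank_ker Φ
  rw [hr, finrank_top, Module.finrank_fintype_fun_eq_card, ← hk] at h2
  rw [Nat.card_eq_fintype_card]
  change P.rank + _ = _ at h1
  omega

end HkA

end Cfsg.Agent.Mult
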