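import Cfsg.Agent.Mult.Hk1
import Cfsg.Agent.BN.Words

/-! The Tits deformation argument: for a finite group with a double coset decomposition of Hecke
type (`HkS`), the number of constituents of `1_B^G` is the rank of a matrix `HkM.P v` which is
polynomial in the parameter; `HkS.card_eq` compares two such groups. -/

set_option autoImplicit false

attribute [-simp] zsmul_eq_mul

open scoped ComplexConjugate _root_.Classical
open MonoidAlgebra Finset

namespace Cfsg.Agent.Mult

open Cfsg Cfsg.Agent.Char Cfsg.Agent.BN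

namespace HkM

variable {ι W : Type*} [Group W] [Fintype W] (I : InvGen ι W) {R S : Type*} [CommRing R]
  [CommRing S]

/-- Left multiplication by a generator. -/
noncomputable def Ls (v : R) (i : ι) : Matrix W W R := fun x w =>
  if I.len w < I.len (I.s i * w) then (if x = I.s i * w then 1 else 0)
  else (if x = I.s i * w then v else 0) + (if x = w then 1 - v else 0)

/-- Right multiplication by a generator. -/
noncomputable def Rs (v : R) (i : ι) : Matrix W W R := fun x w =>
  if I.len w < I.len (w * I.s i) then (if x = w * I.s i then 1 else 0)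
  else (if x = w * I.s i then v else 0) + (if x = w then 1 - v else 0)

/-- A reduced word. -/
noncomputable def word (w : W) : List ι := (I.exists_reduced' w).choose

/-- The Casimir map. -/
noncomputable def P (v : R) : Matrix W W R :=
  ∑ w, v ^ ((∑ u, I.len u) - I.len w) •
    (((word I w).map (Ls I v)).prod * ((word I w).map (Rs I v)).prod)

/-- The commutators with the generators. -/
noncomputable def M (v : R) : Matrix (ι × W) W R := fun p w => (Ls I v p.1 - Rs I v p.1) p.2 w

theorem map_Ls (φ : R →+* S) (v : R) (i : ι) : φ.mapMatrix (Ls I v i) = Ls I (φ v) i := by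
  ext x w
  simp only [Ls, RingHom.mapMatrix_apply, Matrix.map_apply]
  split_ifs <;> simp

theorem map_Rs (φ : R →+* S) (v : R) (i : ι) : φ.mapMatrix (Rs I v i) = Rs I (φ v) i := by
  ext x w
  simp only [Rs, RingHom.mapMatrix_apply, Matrix.map_apply]
  split_ifs <;> simp

theorem map_P (φ : R →+* S) (v : R) : (P I v).map φ = P I (φ v) := by
  rw [← RingHom.mapMatrix_apply]
  unfold P
  rw [map_sum]
  refine sum_congr rfl fun w _ => ?_
  rw [RingHom.mapMatrix_apply, Matrix.map_smul' _ _ _ (map_mul φ), ← RingHom.mapMatrix_apply,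
    map_mul, map_list_prod, map_list_prod, List.map_map, List.map_map, map_pow]
  congr 4 <;> funext i
  · exact map_Ls I φ v i
  · exact map_Rs I φ v i

theorem map_M (φ : R →+* S) (v : R) : (M I v).map φ = M I (φ v) := by
  ext p w
  have h1 := congrFun (congrFun (map_Ls I φ v p.1) p.2) w
  have h2 := congrFun (congrFun (map_Rs I φ v p.1) p.2) w
  simp only [RingHom.mapMatrix_apply, Matrix.map_apply] at h1 h2
  simp [M, h1, h2]

end HkM

/-- A double coset decomposition of Hecke type with parameter `v`. -/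
structure HkS {ι W : Type*} [Group W] (I : InvGen ι W) {G : Type*} [Group G] [Fintype G]
    (B : Subgroup G) (cl : G → W) (v : ℂ) : Prop where
  ne : ∀ i w, I.len (I.s i * w) ≠ I.len w
  cl_B : ∀ b ∈ B, ∀ g, cl (b * g) = cl g
  cl_inv : ∀ g, cl g⁻¹ = (cl g)⁻¹
  dc : ∀ g g', cl g = cl g' → ∃ b ∈ B, ∃ b' ∈ B, g' = b * g * b'
  card : ∀ w, ((univ.filter fun g => cl g = w).card : ℂ) * v ^ I.len w = Nat.card B
  up : ∀ i g g', cl g = I.s i → I.len (cl g') < I.len (I.s i * cl g') →
    cl (g * g') = I.s i * cl g'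
  ss : ∀ i g g', cl g = I.s i → cl g' = I.s i → cl (g * g') = 1 ∨ cl (g * g') = I.s i
  one : cl 1 = 1
  v_ne : v ≠ 0

namespace HkS

open HkA HkM

variable {ι W : Type*} [Group W] {I : InvGen ι W} {G : Type*} [Group G] [Fintype G]
  {B : Subgroup G} {cl : G → W} {v : ℂ}

/-- The basis elements. -/
noncomputable def E (B : Subgroup G) (g : G) : MonoidAlgebra ℂ G := e B * single g 1 * e B

theorem e_mul_E (g : G) : e B * E B g = E B g := by
  rw [E, ← mul_assoc, ← mul_assoc, e_mul_e]

theorem E_mul_e (g : G) : E B g * e B = E B g := by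
  rw [E, mul_assoc, e_mul_e]

theorem E_mul_E (g g' : G) :
    E B g * E B g' = (Nat.card B : ℂ)⁻¹ • ∑ b : B, E B (g * b * g') := by
  have : E B g * E B g' = e B * single g 1 * e B * single g' 1 * e B := by
    simp only [E, mul_assoc]
    rw [← mul_assoc (e B) (e B), e_mul_e]
  rw [this]
  nth_rewrite 2 [e]
  simp only [mul_smul_comm, smul_mul_assoc, mul_sum, sum_mul, E, mul_assoc, single_mul_single,
    mul_one]

variable (h : HkS I B cl v)
include h

theorem cl_B' {b : G} (hb : b ∈ B) (g : G) : cl (g * b) = cl g := by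
  rw [← inv_inj, ← h.cl_inv, mul_inv_rev, h.cl_B _ (B.inv_mem hb), h.cl_inv]

theorem surj (w : W) : ∃ g, cl g = w := by
  by_contra hn
  have h1 := h.card w
  rw [filter_eq_empty_iff.2 fun g _ hg => hn ⟨g, hg⟩] at h1
  exact card_ne B (by rw [← h1]; simp)

theorem len_s (i : ι) : I.len (I.s i) = 1 := by
  have h1 := h.ne i 1
  have h2 := I.len_s_le i
  rw [mul_one, I.len_one] at h1
  omega

theorem E_eq {g g' : G} (e1 : cl g = cl g') : E B g = E B g' := by
  obtain ⟨b, hb, b', hb', rfl⟩ := h.dc g g' e1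
  have : (single (b * g * b') 1 : MonoidAlgebra ℂ G) = single b 1 * single g 1 * single b' 1 := by
    simp [single_mul_single]
  rw [E, E, this, ← mul_assoc, ← mul_assoc, e_mul_single B hb, mul_assoc _ (single b' 1),
    single_mul_e B hb']

/-- The basis element of a double coset. -/
noncomputable def En (w : W) : MonoidAlgebra ℂ G := E B (h.surj w).choose

theorem E_cl (g : G) : E B g = h.En (cl g) := h.E_eq (h.surj (cl g)).choose_spec.symm

theorem En_one : h.En 1 = e B := by
  rw [← h.one, ← h.E_cl, E, ← MonoidAlgebra.one_def, mul_one, e_mul_e]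

theorem En_mul {w w' u : W} (hu : ∀ g g', cl g = w → cl g' = w' → cl (g * g') = u) :
    h.En w * h.En w' = h.En u := by
  rw [En, En, E_mul_E, sum_congr rfl fun b _ => (h.E_cl _).trans (congrArg h.En
    (hu _ _ ((h.cl_B' b.2 _).trans (h.surj w).choose_spec) (h.surj w').choose_spec)),
    sum_const, card_univ, ← Nat.card_eq_fintype_card, ← Nat.cast_smul_eq_nsmul ℂ, smul_smul,
    inv_mul_cancel₀ (card_ne B), one_smul]

theorem En_up {i : ι} {w : W} (hw : I.len w < I.len (I.s i * w)) :
    h.En (I.s i) * h.En w = h.En (I.s i * w) :=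
  h.En_mul fun g g' hg hg' => by subst hg'; exact h.up i g g' hg hw

theorem En_up' {i : ι} {w : W} (hw : I.len w < I.len (w * I.s i)) :
    h.En w * h.En (I.s i) = h.En (w * I.s i) :=
  h.En_mul fun g g' hg hg' => by
    subst hg
    rw [← inv_inj, ← h.cl_inv, mul_inv_rev, h.up i _ _ (by rw [h.cl_inv, hg', I.inv_s]),
      h.cl_inv, mul_inv_rev, I.inv_s]
    rw [h.cl_inv, I.len_inv, ← I.len_inv (_ * _), mul_inv_rev, inv_inv, I.inv_s]
    exact hw

theorem sum_cl (w : W) : ∑ g ∈ univ.filter (fun g => cl g = w), (single g 1 : MonoidAlgebra ℂ G) =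
    ((univ.filter fun g => cl g = w).card : ℂ) • h.En w := by
  set σ := ∑ g ∈ univ.filter (fun g => cl g = w), (single g 1 : MonoidAlgebra ℂ G) with hσ
  have h1 : ∀ b ∈ B, single b 1 * σ = σ := by
    intro b hb
    rw [hσ, mul_sum]
    refine sum_equiv (Equiv.mulLeft b) (fun g => ?_) fun g _ => ?_
    · simp [h.cl_B b hb]
    · simp [single_mul_single]
  have h2 : ∀ b ∈ B, σ * single b 1 = σ := by
    intro b hb
    rw [hσ, sum_mul]
    refine sum_equiv (Equiv.mulRight b) (fun g => ?_) fun g _ => ?_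
    · simp [h.cl_B' hb]
    · simp [single_mul_single]
  have h3 : e B * σ = σ := by
    rw [e, smul_mul_assoc, sum_mul, sum_congr rfl fun (b : B) _ => h1 b b.2, sum_const, card_univ,
      ← Nat.card_eq_fintype_card, ← Nat.cast_smul_eq_nsmul ℂ, smul_smul,
      inv_mul_cancel₀ (card_ne B), one_smul]
  have h4 : σ * e B = σ := by
    rw [e, mul_smul_comm, mul_sum, sum_congr rfl fun (b : B) _ => h2 b b.2, sum_const, card_univ,
      ← Nat.card_eq_fintype_card, ← Nat.cast_smul_eq_nsmul ℂ, smul_smul,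
      inv_mul_cancel₀ (card_ne B), one_smul]
  rw [← h4, ← h3, hσ, mul_sum, sum_mul, Nat.cast_smul_eq_nsmul, ← sum_const]
  refine sum_congr rfl fun g hg => ?_
  rw [← (mem_filter.1 hg).2, ← h.E_cl, E]

theorem card_ne' (w : W) : ((univ.filter fun g => cl g = w).card : ℂ) ≠ 0 := by
  intro h0
  have h1 := h.card w
  rw [h0, zero_mul] at h1
  exact card_ne B h1.symm

theorem ch_En (f : G → ℂ) (w : W) : ch f (h.En w) =
    (∑ g ∈ univ.filter (fun g => cl g = w), f g) / (univ.filter fun g => cl g = w).card := by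
  have h1 := congrArg (ch f) (h.sum_cl w)
  rw [map_smul, map_sum] at h1
  simp only [ch_single, one_mul, smul_eq_mul] at h1
  rw [h1, mul_div_cancel_left₀ _ (h.card_ne' w)]

theorem En_sq (i : ι) :
    h.En (I.s i) * h.En (I.s i) = v • h.En 1 + (1 - v) • h.En (I.s i) := by
  have hs : I.s i ≠ 1 := fun h0 => h.ne i 1 (by rw [h0, one_mul])
  obtain ⟨n, hn⟩ := h.surj (I.s i)
  obtain ⟨α, hα⟩ : ∃ α : ℂ, h.En (I.s i) * h.En (I.s i) = α • h.En 1 + (1 - α) • h.En (I.s i) := by
    refine ⟨(Nat.card B : ℂ)⁻¹ * ∑ b : B, if cl (n * b * n) = 1 then 1 else 0, ?_⟩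
    have h1 : ∀ b : B, E B (n * b * n) = (if cl (n * b * n) = 1 then (1 : ℂ) else 0) • h.En 1 +
        (1 - if cl (n * b * n) = 1 then (1 : ℂ) else 0) • h.En (I.s i) := by
      intro b
      rw [h.E_cl]
      rcases h.ss i (n * b) n ((h.cl_B' b.2 n).trans hn) hn with h2 | h2 <;> simp [h2, hs]
    conv_lhs => rw [← hn, ← h.E_cl, E_mul_E, sum_congr rfl fun b _ => h1 b]
    rw [sum_add_distrib, ← sum_smul, ← sum_smul, smul_add, smul_smul, smul_smul, sum_sub_distrib,
      sum_const, card_univ, ← Nat.card_eq_fintype_card, nsmul_eq_mul, mul_one, mul_sub,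
      inv_mul_cancel₀ (card_ne B)]
  suffices α = v by rw [hα, this]
  let τ : G → ℂ := fun g => if g = 1 then 1 else 0
  have h1 := congrArg (ch τ) hα
  have h2 : ch τ (h.En (I.s i)) = 0 := by
    rw [h.ch_En, sum_eq_zero, zero_div]
    intro g hg
    exact if_neg fun h0 => hs (by rw [← (mem_filter.1 hg).2, h0, h.one])
  have h3 : ch τ (h.En 1) = (Nat.card B : ℂ)⁻¹ := by
    have := h.card 1
    rw [I.len_one, pow_zero, mul_one] at this
    rw [h.ch_En, this]
    simp [τ, h.one]
  have h4 := h.card (I.s i)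
  have h5 := h.card_ne' (I.s i)
  have h6 : ((univ.filter fun g => cl g = I.s i).card : ℂ) *
      ch τ (h.En (I.s i) * h.En (I.s i)) = 1 := by
    have h7 := congrArg (ch τ) (congrArg₂ (· * ·) (h.sum_cl (I.s i)) (h.sum_cl (I.s i)))
    simp only [smul_mul_assoc, mul_smul_comm, map_smul, smul_eq_mul, sum_mul, mul_sum, map_sum,
      single_mul_single, ch_single, one_mul] at h7
    have h8 : ∀ g ∈ univ.filter (fun g => cl g = I.s i),
        ∑ g' ∈ univ.filter (fun g => cl g = I.s i), τ (g' * g) = 1 := by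
      intro g hg
      rw [sum_eq_single g⁻¹]
      · simp [τ]
      · intro g' _ hg'
        exact if_neg fun h0 => hg' (eq_inv_of_mul_eq_one_left h0)
      · intro h0
        exact absurd (mem_filter.2 ⟨mem_univ _, by
          rw [h.cl_inv, (mem_filter.1 hg).2, I.inv_s]⟩) h0
    rw [sum_congr rfl h8, sum_const, nsmul_eq_mul, mul_one] at h7
    exact mul_left_cancel₀ h5 (by rw [← h7, mul_one])
  rw [map_add, map_smul, map_smul, h2, h3, smul_zero, add_zero, smul_eq_mul] at h1
  rw [h.len_s, pow_one] at h4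
  rw [h1, ← h4] at h6
  have h9 := h.v_ne
  field_simp at h6
  exact h6

theorem e_mul_En (w : W) : e B * h.En w = h.En w := e_mul_E _

theorem En_mul_e (w : W) : h.En w * e B = h.En w := E_mul_e _

variable [Fintype W]

theorem En_left (i : ι) (w : W) : ∑ x, Ls I v i x w • h.En x = h.En (I.s i) * h.En w := by
  unfold Ls
  split_ifs with hw
  · rw [h.En_up hw]; simp
  · have h1 : I.len (I.s i * w) < I.len (I.s i * (I.s i * w)) := by
      have := h.ne i w
      rw [I.s_mul_s_mul]; omega
    have h2 := h.En_up h1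
    rw [I.s_mul_s_mul] at h2
    conv_rhs => rw [← h2, ← mul_assoc, h.En_sq, add_mul, smul_mul_assoc, smul_mul_assoc, h2,
      h.En_one, h.e_mul_En]
    simp [add_smul, sum_add_distrib]

theorem En_right (i : ι) (w : W) : ∑ x, Rs I v i x w • h.En x = h.En w * h.En (I.s i) := by
  unfold Rs
  split_ifs with hw
  · rw [h.En_up' hw]; simp
  · have h1 : I.len (w * I.s i) < I.len (w * I.s i * I.s i) := by
      have := h.ne i w⁻¹
      rw [← I.len_inv, mul_inv_rev, inv_inv, I.inv_s, I.len_inv] at this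
      rw [I.mul_s_mul_s]; omega
    have h2 := h.En_up' h1
    rw [I.mul_s_mul_s] at h2
    conv_rhs => rw [← h2, mul_assoc, h.En_sq, mul_add, mul_smul_comm, mul_smul_comm, h2,
      h.En_one, h.En_mul_e]
    simp [add_smul, sum_add_distrib]

/-- The coordinates on the Hecke algebra. -/
noncomputable def j : (W → ℂ) →ₗ[ℂ] MonoidAlgebra ℂ G := Fintype.linearCombination ℂ h.En

theorem j_apply (c : W → ℂ) : h.j c = ∑ w, c w • h.En w := Fintype.linearCombination_apply _ _ _

theorem j_inj : Function.Injective h.j := by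
  rw [injective_iff_map_eq_zero]
  intro c hc
  funext u
  have h1 := congrArg (ch fun g => if cl g = u then 1 else 0) hc
  rw [j_apply, map_sum, map_zero, sum_eq_single u] at h1
  · rw [map_smul, h.ch_En, sum_congr rfl fun g hg => if_pos (mem_filter.1 hg).2, sum_const,
      nsmul_eq_mul, mul_one, div_self (h.card_ne' u), smul_eq_mul, mul_one] at h1
    exact h1
  · intro w _ hw
    rw [map_smul, h.ch_En, sum_eq_zero, zero_div, smul_zero]
    intro g hg
    exact if_neg fun h0 => hw ((mem_filter.1 hg).2.symm.trans h0)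
  · simp

theorem e_mul_j (c : W → ℂ) : e B * h.j c = h.j c := by
  simp only [j_apply, mul_sum, mul_smul_comm, h.e_mul_En]

theorem j_mul_e (c : W → ℂ) : h.j c * e B = h.j c := by
  simp only [j_apply, sum_mul, smul_mul_assoc, h.En_mul_e]

theorem j_surj (x : MonoidAlgebra ℂ G) : ∃ c, h.j c = e B * x * e B := by
  induction x using MonoidAlgebra.induction_linear with
  | zero => exact ⟨0, by simp⟩
  | add x y hx hy =>
    obtain ⟨c, hc⟩ := hx
    obtain ⟨d, hd⟩ := hy
    exact ⟨c + d, by rw [map_add, hc, hd, mul_add, add_mul]⟩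
  | single g r =>
    refine ⟨Pi.single (cl g) r, ?_⟩
    have e1 : (single g r : MonoidAlgebra ℂ G) = r • single g 1 := by simp
    rw [j, Fintype.linearCombination_apply_single, e1, mul_smul_comm, smul_mul_assoc, ← h.E_cl, E]

theorem j_Ls (i : ι) (c : W → ℂ) : h.j ((Ls I v i).mulVec c) = h.En (I.s i) * h.j c := by
  simp only [j_apply, Matrix.mulVec, dotProduct, sum_smul, mul_sum, mul_smul_comm, ← h.En_left,
    smul_sum, smul_smul]
  rw [sum_comm]
  simp only [mul_comm]

theorem j_Rs (i : ι) (c : W → ℂ) : h.j ((Rs I v i).mulVec c) = h.j c * h.En (I.s i) := by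
  simp only [j_apply, Matrix.mulVec, dotProduct, sum_smul, sum_mul, smul_mul_assoc, ← h.En_right,
    smul_sum, smul_smul]
  rw [sum_comm]
  simp only [mul_comm]

omit [Fintype W] h in
theorem len_cons {i : ι} {l : List ι} (hl : I.Reduced (i :: l)) :
    I.len (I.wp l) < I.len (I.s i * I.wp l) := by
  have h1 : I.len (I.wp l) = l.length := hl.tail
  have h2 : I.len (I.wp (i :: l)) = (i :: l).length := hl
  rw [I.wp_cons, List.length_cons] at h2
  omega

theorem j_word_L {l : List ι} (hl : I.Reduced l) (c : W → ℂ) :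
    h.j ((l.map (Ls I v)).prod.mulVec c) = h.En (I.wp l) * h.j c := by
  induction l with
  | nil => simp [h.En_one, h.e_mul_j]
  | cons i l ih =>
    rw [List.map_cons, List.prod_cons, ← Matrix.mulVec_mulVec, h.j_Ls, ih hl.tail, ← mul_assoc,
      h.En_up (len_cons hl), I.wp_cons]

theorem j_word_R {l : List ι} (hl : I.Reduced l) (c : W → ℂ) :
    h.j ((l.map (Rs I v)).prod.mulVec c) = h.j c * h.En (I.wp l)⁻¹ := by
  induction l with
  | nil => simp [h.En_one, h.j_mul_e]
  | cons i l ih =>
    have h1 : I.len (I.wp l)⁻¹ < I.len ((I.wp l)⁻¹ * I.s i) := by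
      rw [I.len_inv, ← I.len_inv (_ * _), mul_inv_rev, inv_inv, I.inv_s]
      exact len_cons hl
    rw [List.map_cons, List.prod_cons, ← Matrix.mulVec_mulVec, h.j_Rs, ih hl.tail, mul_assoc,
      h.En_up' h1, I.wp_cons, mul_inv_rev, I.inv_s]

theorem Z_mul_e {y : MonoidAlgebra ℂ G} (h1 : e B * y = y) (h2 : y * e B = y) :
    Z y * e B = ∑ w, ((univ.filter fun g => cl g = w).card : ℂ) • (h.En w * y * h.En w⁻¹) := by
  have h3 : Z y * e B = e B * Z y * e B := by rw [← Z_comm, mul_assoc, e_mul_e]
  rw [h3, Z, mul_sum, sum_mul, ← sum_fiberwise (s := univ) (g := cl)]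
  refine sum_congr rfl fun w _ => ?_
  rw [Nat.cast_smul_eq_nsmul, ← sum_const]
  refine sum_congr rfl fun g hg => ?_
  rw [← (mem_filter.1 hg).2, ← h.cl_inv, ← h.E_cl, ← h.E_cl, E, E]
  conv_lhs => rw [← h1, ← h2]
  simp only [mul_assoc]

theorem j_P (c : W → ℂ) : h.j ((P I v).mulVec c) =
    (v ^ (∑ u, I.len u) / Nat.card B) • (Z (h.j c) * e B) := by
  rw [h.Z_mul_e (h.e_mul_j c) (h.j_mul_e c), P, Matrix.sum_mulVec, map_sum, smul_sum]
  refine sum_congr rfl fun w _ => ?_
  obtain ⟨h1, h2⟩ := (I.exists_reduced' w).choose_spec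
  rw [Matrix.smul_mulVec, map_smul, ← Matrix.mulVec_mulVec, word, h.j_word_L h1, h.j_word_R h1, h2,
    smul_smul, mul_assoc]
  congr 1
  have h3 : I.len w ≤ ∑ u, I.len u :=
    single_le_sum (f := fun u => I.len u) (fun _ _ => Nat.zero_le _) (mem_univ w)
  have h4 := h.card_ne' w
  have h5 := h.v_ne
  rw [← h.card w]
  obtain ⟨k, hk⟩ := Nat.exists_eq_add_of_le h3
  rw [hk, Nat.add_sub_cancel_left, pow_add]
  field_simp

theorem rank_P : (P I v).rank = Nat.card {χ : IrrCharacter G // ch χ (e B) ≠ 0} :=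
  rank_eq_card (e_mul_e B) h.j h.j_inj h.j_surj _
    (div_ne_zero (pow_ne_zero _ h.v_ne) (card_ne B)) h.j_P

theorem M_mulVec {c : W → ℂ} :
    (M I v).mulVec c = 0 ↔ ∀ i, h.En (I.s i) * h.j c = h.j c * h.En (I.s i) := by
  have h1 : ∀ i x, (M I v).mulVec c (i, x) = ((Ls I v i).mulVec c - (Rs I v i).mulVec c) x := by
    intro i x
    rw [← Matrix.sub_mulVec]; rfl
  simp only [← h.j_Ls, ← h.j_Rs, h.j_inj.eq_iff]
  constructor
  · intro h0 i
    rw [← sub_eq_zero]
    funext x
    rw [← h1, h0]; rfl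
  · intro h0
    funext p
    rw [h1 p.1 p.2, h0, sub_self]; rfl

variable [Fintype ι]

theorem rank_add_le : (M I v).rank + (P I v).rank ≤ Fintype.card W := by
  refine Matrix.rank_add_rank_le_card_of_mul_eq_zero ?_
  refine Matrix.ext_of_mulVec_single fun w => ?_
  rw [← Matrix.mulVec_mulVec, Matrix.zero_mulVec, h.M_mulVec]
  intro i
  rw [h.j_P, mul_smul_comm, smul_mul_assoc, ← mul_assoc, ← Z_comm, mul_assoc, mul_assoc,
    h.e_mul_En, h.En_mul_e]

omit [Fintype ι] in
theorem le_rank_add : Fintype.card W ≤ (M I v).rank + (P I v).rank := by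
  have h1 := LinearMap.finrank_range_add_finrank_ker (M I v).mulVecLin
  rw [Module.finrank_fintype_fun_eq_card] at h1
  change (M I v).rank + _ = _ at h1
  let f : LinearMap.ker (M I v).mulVecLin →ₗ[ℂ] LinearMap.range (P I v).mulVecLin :=
    (P I v).mulVecLin.rangeRestrict ∘ₗ (LinearMap.ker (M I v).mulVecLin).subtype
  have hf : Function.Injective f := by
    rw [injective_iff_map_eq_zero]
    rintro ⟨c, hc⟩ h0
    have h2 : (P I v).mulVec c = 0 := congrArg Subtype.val h0
    have h3 := h.M_mulVec.1 hc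
    have h4 : ∀ l, I.Reduced l → h.En (I.wp l) * h.j c = h.j c * h.En (I.wp l) := by
      intro l hl
      induction l with
      | nil => rw [I.wp_nil, h.En_one, h.e_mul_j, h.j_mul_e]
      | cons i l ih =>
        rw [I.wp_cons, ← h.En_up (len_cons hl), mul_assoc, ih hl.tail, ← mul_assoc, h3, mul_assoc]
    have h5 : ∀ w, h.En w * h.j c = h.j c * h.En w := by
      intro w
      obtain ⟨l, hl, rfl⟩ := I.exists_reduced' w
      exact h4 l hl
    have h6 := h.j_P c
    rw [h2, map_zero, eq_comm, smul_eq_zero,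
      or_iff_right (div_ne_zero (pow_ne_zero _ h.v_ne) (card_ne B)),
      h.Z_mul_e (h.e_mul_j c) (h.j_mul_e c)] at h6
    have h7 : Z (e B) * h.j c = 0 := by
      rw [← h.e_mul_j, ← mul_assoc, h.Z_mul_e (e_mul_e B) (e_mul_e B), sum_mul, ← h6]
      refine sum_congr rfl fun w _ => ?_
      rw [smul_mul_assoc, h.En_mul_e, mul_assoc, h5, mul_assoc]
    exact Subtype.ext (h.j_inj ((eq_zero_of_Z_mul (e_mul_e B) (h.e_mul_j c) h7).trans
      (map_zero _).symm))
  have h2 := LinearMap.finrank_le_finrank_of_injective hf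
  change _ ≤ (P I v).rank at h2
  omega

omit h in
/-- The deformation argument. -/
theorem rank_le {a b : ℂ} (ha : Fintype.card W ≤ (M I a).rank + (P I a).rank) {S : Set ℂ}
    (hS : S.Infinite) (hc : ∀ c ∈ S, (M I c).rank + (P I c).rank ≤ Fintype.card W) :
    (P I b).rank ≤ (P I a).rank := by
  have e1 : ∀ c : ℂ, (P I Polynomial.X).map (Polynomial.eval c) = P I c := fun c => by
    have := map_P I (Polynomial.evalRingHom c) Polynomial.X
    simpa using this
  have e2 : ∀ c : ℂ, (M I Polynomial.X).map (Polynomial.eval c) = M I c := fun c => by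
    have := map_M I (Polynomial.evalRingHom c) Polynomial.X
    simpa using this
  have h1 := finite_rank_lt (P I Polynomial.X) b
  have h2 := finite_rank_lt (M I Polynomial.X) a
  obtain ⟨c, hcS, hc'⟩ := (hS.sdiff (h1.union h2)).nonempty
  simp only [Set.mem_union, Set.mem_ofPred_eq, e1, e2, not_or, not_lt] at hc'
  have := hc c hcS
  omega

omit h in
theorem self (hI : ∀ i w, I.len (I.s i * w) ≠ I.len w) :
    HkS I (⊥ : Subgroup W) id 1 where
  ne := hI
  cl_B b hb g := by rw [Subgroup.mem_bot.1 hb, one_mul]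
  cl_inv _ := rfl
  dc g g' e := ⟨1, one_mem _, 1, one_mem _, by simpa using e.symm⟩
  card w := by
    rw [show (univ.filter fun g : W => id g = w) = {w} by ext; simp]
    simp
  up i g g' e _ := congrArg (· * g') e
  ss i g g' e e' := Or.inl (by rw [id, show g = I.s i from e, show g' = I.s i from e', I.mul_self])
  one := rfl
  v_ne := one_ne_zero

/-- The number of constituents of `1_B^G` is the class number of `W`. -/
theorem card_eq {S : Set ℂ} (hS : S.Infinite)
    (hc : ∀ c ∈ S, (M I c).rank + (P I c).rank ≤ Fintype.card W) :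
    Nat.card {χ : IrrCharacter G // ∃ φ : G → ℂ, IsCharacter G φ ∧
      fixedPointCharacter B = (χ : G → ℂ) + φ} = Nat.card (ConjClasses W) := by
  have h0 := self h.ne
  rw [Nat.card_congr (Equiv.subtypeEquivRight fun χ : IrrCharacter G => const_iff B χ.2),
    ← h.rank_P, le_antisymm (rank_le h0.le_rank_add hS hc) (rank_le h.le_rank_add hS hc),
    h0.rank_P, ← card_irr_eq_card_conjClasses]
  refine Nat.card_congr (Equiv.subtypeUnivEquiv fun χ => ?_)
  have := χ.2.apply_one_ne_zero
  have h1 : ((default : (⊥ : Subgroup W)) : W) = 1 := rfl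
  simpa [e, ch_single, h1] using this

end HkS

end Cfsg.Agent.Mult
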