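import Cfsg.Agent.BN.Hecke
import Cfsg.Agent.Mult.St3
import Cfsg.Agent.Mult.Fo5
import Cfsg.Agent.ChAut.TwD4
import Cfsg.Agent.S0281

/-! The Steinberg module of a finite (B,N)-pair (`stSub`, `exists_stBN`) and the Steinberg character of a twisted
group (`Fold.hasSt`, `hasSt_PSU`). -/

set_option autoImplicit false

namespace Cfsg.Agent.Mult

open Cfsg.Agent.BN Cfsg.Agent.Char Finset
open scoped _root_.Classical

section
variable {G : Type*} [Group G] [Fintype G] (P : BNPair G)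

/-- The permutation module on the chambers. -/
def chRep : Representation ℂ G (G ⧸ P.B → ℂ) where
  toFun g := LinearMap.funLeft ℂ ℂ (g⁻¹ • ·)
  map_one' := by ext; simp
  map_mul' _ _ := by ext; simp [mul_smul]

/-- The functions with vanishing sums over all panels. -/
def stSub : Subrepresentation (chRep P) where
  toSubmodule :=
    { carrier := {f | ∀ s x, f x + ∑ y with dist P x y = (gens P).s s, f y = 0}
      add_mem' := fun {f g} a b s x => by
        simp only [Pi.add_apply, sum_add_distrib]; linear_combination a s x + b s x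
      zero_mem' := by simp
      smul_mem' := fun c f a s x => by
        simp only [Pi.smul_apply, smul_eq_mul, ← mul_sum, ← mul_add, a s x, mul_zero] }
  apply_mem_toSubmodule g f a s x := (congrArg _ (sum_equiv (MulAction.toPerm g⁻¹) (fun y => by
    simp [BN.dist_smul]) fun _ _ => rfl)).trans (a s (g⁻¹ • x))

variable {P}

theorem stSub_eq_zero {f : G ⧸ P.B → ℂ} (hf : f ∈ (stSub P).toSubmodule) (z : G ⧸ P.B)
    (h : ∀ x, (∀ s, (gens P).len ((gens P).s s * dist P x z) ≤ (gens P).len (dist P x z)) → f x = 0) : f = 0 := by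
  obtain ⟨M, hM⟩ := Finite.exists_le fun x => (gens P).len (dist P x z)
  funext x
  induction e : M - (gens P).len (dist P x z) using Nat.strong_induction_on generalizing x with | _ k ih => ?_
  by_contra h0
  obtain ⟨s, hs⟩ := not_forall.1 (mt (h x) h0)
  refine h0 ((add_zero _).symm.trans ((congrArg _ (sum_eq_zero fun y hy => ?_).symm).trans (hf s x)))
  have := dist_s_of_le (x := y) (by rw [dist_symm, (mem_filter.1 hy).2, InvGen.inv_s]) (not_le.1 hs).le
  exact ih _ (by have := hM y; rw [← e]; simp_all; omega) y rfl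

theorem exists_apt : ∃ a : Weyl P → P.N, (∀ w, wmk P (a w) = w) ∧
    (fun x : G ⧸ P.B => ∑ w, if x = (a w : G) then (-1 : ℂ) ^ (gens P).len w else 0) ∈ (stSub P).toSubmodule := by
  choose a ha using wmk_surjective P
  refine ⟨a, ha, fun s x => ?_⟩
  have h1 : ∀ w, dist P ((a w : G) : G ⧸ P.B) x = 1 ∨ dist P ((a w : G) : G ⧸ P.B) x = (gens P).s s →
      dist P ((a (w * (gens P).s s) : G) : G ⧸ P.B) x = 1 ∨
        dist P ((a (w * (gens P).s s) : G) : G ⧸ P.B) x = (gens P).s s := fun w h => by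
    have := dist_s (s := s) (x := (a (w * (gens P).s s) : G)) (y := (a w : G)) (by
      rw [dist_mk, ← Subgroup.coe_inv, ← Subgroup.coe_mul, cell_coe, map_mul, map_inv, ha, ha]
      simp [InvGen.inv_s]) x
    rcases h with h | h <;> rcases this with e | e <;> simp [e, h, (gens P).mul_self]
  rw [sum_comm, ← sum_add_distrib]
  refine (sum_congr rfl fun w _ => ?_).trans (sum_involution (f := fun w => if dist P ((a w : G) : G ⧸ P.B) x = 1 ∨
    dist P ((a w : G) : G ⧸ P.B) x = (gens P).s s then (-1 : ℂ) ^ (gens P).len w else 0)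
    (fun w _ => w * (gens P).s s) (fun w _ => ?_) (fun w _ _ => by simp [gens_s_ne_one]) (by simp)
    fun w _ => (gens P).mul_s_mul_s s w)
  · simp only [sum_ite_eq', mem_filter, dist_symm x, inv_eq_one, inv_eq_iff_eq_inv, InvGen.inv_s, dist_eq_one_iff]
    by_cases e : x = (a w : G)
    · simp [e, dist_eq_one_iff.2 rfl, (gens_s_ne_one P s).symm]
    · simp [e, dist_eq_one_iff]
  · have h2 := h1 w
    have h3 := h1 (w * (gens P).s s)
    rw [InvGen.mul_s_mul_s] at h3
    have h4 := len_mul_s_ne s w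
    have h5 := (gens P).len_mul_s_le s w
    have h6 := (gens P).len_le_len_mul_s s w
    split_ifs with e1 e2 e2
    · rcases (by omega : (gens P).len (w * (gens P).s s) = (gens P).len w + 1 ∨
        (gens P).len w = (gens P).len (w * (gens P).s s) + 1) with e | e <;> simp [e, pow_succ]
    exacts [absurd (h2 e1) e2, absurd (h3 e2) e1, add_zero _]

theorem exists_stBN {U : Subgroup G} {n : P.N}
    (h1 : ∀ m : P.N, (∀ s, (gens P).len ((gens P).s s * wmk P m) ≤ (gens P).len (wmk P m)) → wmk P m = wmk P n)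
    (h2 : ∀ b ∈ P.B, ∃ u ∈ U, ∃ b' ∈ P.B, b * (n : G)⁻¹ = u * (n : G)⁻¹ * b') (hU : U ≤ P.B)
    (h3 : ∀ u ∈ U, (n : G) * u * (n : G)⁻¹ ∈ P.B → u = 1) : ∃ χ, IsIrrCharacter G χ ∧ χ 1 = Nat.card U := by
  let Φ : (stSub P).toSubmodule →ₗ[ℂ] (U → ℂ) :=
    LinearMap.funLeft ℂ ℂ (fun u : U => (((u : G) * (n : G)⁻¹ : G) : G ⧸ P.B)) ∘ₗ (stSub P).toSubmodule.subtype
  have a1 : Function.Injective Φ := (injective_iff_map_eq_zero _).2 fun f hf => Subtype.ext
    (stSub_eq_zero f.2 (1 : G) fun x hx => by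
      induction x using QuotientGroup.induction_on with | H g => ?_
      obtain ⟨m, hm⟩ := wmk_surjective P (cell P g⁻¹)
      rw [dist_mk, mul_one, ← hm] at hx
      obtain ⟨b, hb, b', hb', e⟩ := cell_eq_wmk_iff.1 (hm.symm.trans (h1 m hx))
      obtain ⟨u, hu, c, hc, e'⟩ := h2 _ (inv_mem hb')
      refine (congrArg f.1 (QuotientGroup.eq.2 ?_)).trans (congrFun hf ⟨u, hu⟩)
      rw [e, eq_mul_inv_of_mul_eq e'.symm]
      simpa [mul_assoc] using mul_mem hb (inv_mem hc))
  obtain ⟨a, ha, he⟩ := exists_apt (P := P)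
  have a2 : ∀ u : U, Φ ((stSub P).toRepresentation u ⟨_, he⟩) =
      (-1 : ℂ) ^ (gens P).len (wmk P n)⁻¹ • Pi.single u 1 := fun u => funext fun v => by
    change ∑ w, (if (u : G)⁻¹ • (((v : G) * (n : G)⁻¹ : G) : G ⧸ P.B) = _ then _ else _) = _
    rw [sum_eq_single (wmk P n)⁻¹ (fun w _ hw => if_neg fun e => hw ?_) (by simp), Pi.smul_apply, Pi.single_apply,
      smul_ite, smul_zero, smul_eq_mul, mul_one]
    · have : ((a (wmk P n)⁻¹ : G) : G ⧸ P.B) = ((n⁻¹ : P.N) : G) := QuotientGroup.eq.2 (wmk_eq_iff.1 (by simp [ha]))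
      rw [this, MulAction.Quotient.smul_mk]
      refine if_congr (QuotientGroup.eq.trans
        ⟨fun e => Subtype.ext (inv_mul_eq_one.1 (h3 _ (mul_mem (inv_mem v.2) u.2) ?_)), ?_⟩) rfl rfl
      · simpa [mul_assoc] using e
      · rintro rfl; simp
    · rw [← ha w, ← map_inv, ← cell_coe, ← cell_coe, cell_eq_cell_iff]
      rw [MulAction.Quotient.smul_mk, QuotientGroup.eq] at e
      exact ⟨_, hU (mul_mem (inv_mem u.2) v.2), _, e, by simp [mul_assoc]⟩
  have a3 : Function.Surjective Φ := LinearMap.range_eq_top.1 (eq_top_iff.2 ((Pi.basisFun ℂ U).span_eq.ge.trans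
    (Submodule.span_le.2 (by
      rintro _ ⟨u, rfl⟩
      rw [Pi.basisFun_apply]
      exact ((LinearMap.range Φ).smul_mem_iff (by simp)).1 ⟨_, a2 u⟩))))
  obtain ⟨f0, h0⟩ := a3 1
  have a4 : ∀ M : Subrepresentation (stSub P).toRepresentation, M ≠ ⊥ → f0 ∈ M := fun M hM => by
    obtain ⟨f, hf, e⟩ := Submodule.exists_mem_ne_zero_of_ne_bot (p := M.toSubmodule)
      fun e => hM (Subrepresentation.toSubmodule_injective e)
    obtain ⟨x, hx⟩ := Function.ne_iff.1 fun h => e (Subtype.ext h)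
    induction x using QuotientGroup.induction_on with | H g => ?_
    set f' := ∑ b : P.B, (stSub P).toRepresentation (b * g⁻¹) f
    have b1 : f' ∈ M.toSubmodule := Submodule.sum_mem _ fun b _ => M.apply_mem_toSubmodule _ hf
    have b2 : ∀ y, f'.1 y = ∑ b : P.B, f.1 (g • (b : G)⁻¹ • y) := fun y => by
      simp [f', Subrepresentation.toRepresentation, chRep, mul_smul]
    have b3 : Φ f' = f'.1 ((n : G)⁻¹ : G) • Φ f0 := funext fun u => by
      rw [h0, Pi.smul_apply, Pi.one_apply, smul_eq_mul, mul_one, b2]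
      refine (b2 _).trans (sum_equiv (Equiv.mulLeft (⟨u, hU u.2⟩ : P.B)⁻¹) (by simp) fun b _ => ?_)
      simp [mul_assoc]
    rw [← map_smul, a1.eq_iff] at b3
    refine (M.toSubmodule.smul_mem_iff fun e => hx ?_).1 (b3 ▸ b1)
    have b4 := b2 (1 : G)
    rw [b3, e, zero_smul, sum_congr rfl fun (b : P.B) _ => congrArg f.1 (show g • (b : G)⁻¹ • ((1 : G) : G ⧸ P.B) =
      (g : G ⧸ P.B) from QuotientGroup.eq.2 (by simp))] at b4
    simpa using b4.symm
  have a5 : f0 ≠ 0 := fun e => by simpa [e] using congrFun h0 1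
  have : Nontrivial (Subrepresentation (stSub P).toRepresentation) :=
    ⟨⊥, ⊤, fun e => a5 (show f0 ∈ (⊥ : Subrepresentation (stSub P).toRepresentation) from e ▸ trivial)⟩
  have : (stSub P).toRepresentation.IsIrreducible := ⟨fun M => by
    obtain ⟨M', h⟩ := exists_isCompl M
    by_contra! e
    exact a5 (show f0 ∈ (⊥ : Subrepresentation (stSub P).toRepresentation) from h.inf_eq_bot ▸
      ⟨a4 M e.1, a4 M' fun e' => e.2 (by simpa [e'] using h.sup_eq_top)⟩)⟩
  exact ⟨_, isIrrCharacter_character (stSub P).toRepresentation, by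
    rw [Representation.char_one, (LinearEquiv.ofBijective Φ ⟨a1, a3⟩).finrank_eq, Module.finrank_fintype_fun_eq_card,
      Nat.card_eq_fintype_card]⟩

end

open Cfsg.Lie Cfsg.Agent.Chev Cfsg.Agent.Chev.Sys Cfsg.Agent.ChAut in
theorem Fold.hasSt {D : ChevalleyDatum} [Good D] [Conn D] {S : Sym D} {F : Type*} [Field F] [Finite F] {G : Type*}
    [Group G] [Finite G] {X : Sys D F G} {Γ : Subgroup G} (h : X.Fold S Γ) (c : X.Cover) (m : X.Mult) (p : ℕ)
    [Fact p.Prime] [CharP F p] : HasSt p Γ := by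
  have := Fintype.ofFinite Γ
  obtain ⟨n, n1, n2, n3⟩ := h.exists_N0
  have n4 : X.Mon n⁻¹ (w0 Set.univ) := w0_inv (Set.univ : Set (Sm D)) ▸ n2.inv
  obtain ⟨P, hP⟩ := exists_sylow_UP h c m p
  refine (exists_stBN (P := h.bn c) (U := X.UP.subgroupOf Γ) (n := ⟨⟨n, n3⟩, n1⟩) (fun k hk => ?_)
    (fun b hb => ?_) (fun u hu => X.UP_le_B hu) fun u hu e => Subtype.ext (by
      simpa [mul_inv_eq_one] using c.eq_one_of_B_UN e (n2.conj_mem_U (fun r hr => not_pos_w0 hr (by simp [InJ])) hu))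
    ).elim fun χ ⟨a, b⟩ => hasSt_of a (by rw [b, ← hP, P.card_eq_multiplicity])
  · obtain ⟨w, hw⟩ := exists_mon k.2
    have w1 := h.stable.mem_W1 k.2 hw k.1.2
    refine wmk_eq_iff.2 (X.H_le_B (c.inv_mul_mem_H k.2 n1 hw ?_))
    rw [← inv_inv w, eq_w0 (J := Set.univ) (w := w⁻¹) (WJ_univ.ge trivial) fun i _ hi => ?_, w0_inv]
    · exact n2
    obtain ⟨b, hb, e⟩ := exists_cell_s_mul_eq (hk ⟨_, i, rfl⟩)
    obtain ⟨b1, c1, b2, c2, e⟩ := cell_eq_wmk_iff.1 e
    have d1 : X.Cell (h.nu ⟨_, S.w1_mem i⟩ * (b * k)) w := by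
      rw [← mul_assoc, show (h.nu ⟨_, S.w1_mem i⟩ * b * k : G) = b1 * k * b2 from congrArg Subtype.val e]
      exact ((hw.cell k.2).mul_left c1).mul_right c2
    have d2 := c.cell_unique d1 (cell_mul_len c ((h.mon_nu _).cell (h.nu_mem _)) ((hw.cell k.2).mul_left hb) (by
      have := S.len_mul_w1 (inv_mem w1) hi
      rwa [wlen, ← InvGen.len_inv, mul_inv_rev, inv_inv, Sym.w1, w0_inv, wlen, InvGen.len_inv, add_comm] at this))
    exact S.w1_ne_one i (right_eq_mul.1 d2)
  · obtain ⟨-, u, a1, k, a2, a3, u', a4, e⟩ := h.stable.exists_canon c (mul_mem b.2 (inv_mem n3))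
      ((n4.cell (inv_mem n1)).mul_left hb)
    exact ⟨⟨u, a1.2⟩, a1.1, ⟨n * k * u', mul_mem (mul_mem n3 a2.2) a4.2⟩, mul_mem (X.H_le_B (by
      simpa using c.inv_mul_mem_H (inv_mem n1) a2.1 n4 a3)) (X.UP_le_B (X.UI_le _ a4.1)), Subtype.ext (by
        simpa [mul_assoc] using e)⟩

attribute [local instance 100] LieRing.ofAssociativeRing in
open Cfsg.Agent.Chev Cfsg.Agent.ChAut in
theorem hasSt_PSU {F : Type*} [Field F] [Fintype F] (p : ℕ) [Fact p.Prime] [CharP F p] {n q : ℕ} (hn : 2 ≤ n)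
    (hF : Fintype.card F = q ^ 2) : HasSt p (PSU n F q) := by
  obtain ⟨σ, h1, h2, h3⟩ := exists_frobq hF
  obtain rfl | hn := hn.eq_or_lt
  · have := Fintype.ofFinite (fixF (σ : F →+* F))
    obtain ⟨e⟩ := S0281.result (K := fixF (σ : F →+* F)) hF (Nat.card_eq_fintype_card.symm.trans (card_fixF h1
      (by_contra fun h => by have := Fintype.one_lt_card (α := F); interval_cases q <;> omega)
      (Nat.card_eq_fintype_card.trans hF)))
    exact (hasSt_PSL2 _ p).of_equiv (Geom.quotCenterCongr e)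
  obtain ⟨l, rfl⟩ := Nat.exists_eq_add_of_le' (show 1 ≤ n by omega)
  have hl : 2 ≤ l := by omega
  obtain ⟨e⟩ := exists_equiv_SU hl hF h1
  have c := slFull hl F
  have h := (invol_autSU hl h2 h3).fold c.c le_rfl (c.top ▸ le_top) inf_le_right inf_le_right
  exact (Fold.hasSt (h.map c.c c.top) (Sys.adCover _ F) (adS_mult _ F) p).of_equiv
    ((Geom.quotCenterCongr e).trans (Fold.quotEquiv h c))

end Cfsg.Agent.Mult
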