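import Cfsg.Agent.Chev.InvRee
import Cfsg.Agent.Chev.CoxE7
import Cfsg.Agent.Chev.CoxE8

/-! Steinberg's generators: a subgroup containing a torus element `h` and `x_r(1) x_s(1) n` contains root subgroups
(`tg_ext`, `tg_half`), closure certificates for sets of roots (`Cer`), two generators for Chevalley groups
(`tg_big`, `tg_two`). -/

set_option autoImplicit false

namespace Cfsg.Agent.Mult

open Cfsg.Lie Cfsg.Agent.Chev Cfsg.Agent.Chev.Sys

attribute [-simp] zsmul_eq_mul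

variable {F : Type*} [Field F] {G : Type*} [Group G] {K : Subgroup G}

/-- `μ ≠ 1` generates the field. -/
def Gn (μ : F) : Prop := μ ≠ 1 ∧ ∀ S : AddSubgroup F, (∀ t ∈ S, μ * t ∈ S) → ∀ c ∈ S, c ≠ 0 → ∀ t, t ∈ S

theorem gn_zpow [Finite F] {g : Fˣ} (hg : ∀ x, x ∈ Subgroup.zpowers g) {k : ℤ} (hk : k ∣ 2) (h1 : g ^ k ≠ 1) :
    Gn ((g ^ k : Fˣ) : F) := by
  refine ⟨fun e => h1 (Units.ext e), fun S hS c hc h0 t => ?_⟩
  have a1 : ∀ x : F, x ^ 2 * c ∈ S := fun x => by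
    obtain rfl | hx := eq_or_ne x 0
    · simp
    obtain ⟨i, hi⟩ := hg (Units.mk0 x hx)
    obtain ⟨j, hj⟩ := hk
    obtain ⟨n, hn⟩ := (mem_powers_iff_mem_zpowers (x := g ^ k) (y := Units.mk0 x hx ^ 2)).2
      ⟨j * i, by simp only [← hi, ← zpow_mul, ← mul_assoc, ← hj, ← zpow_natCast]; congr 1; ring⟩
    have : ∀ n : ℕ, ((g ^ k : Fˣ) : F) ^ n * c ∈ S := fun n => by
      induction n with
      | zero => simpa
      | succ n ih => rw [pow_succ', mul_assoc]; exact hS _ ih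
    have e := congrArg Units.val hn
    simp only [Units.val_pow_eq_pow_val, Units.val_mk0] at e
    exact e ▸ this n
  by_cases h2 : (2 : F) = 0
  · have := ringChar.of_eq (CharP.ringChar_of_prime_eq_zero Nat.prime_two (R := F) (by exact_mod_cast h2))
    obtain ⟨s, hs⟩ := surjective_frobenius F 2 (t / c)
    simpa [← frobenius_def, hs, h0] using a1 s
  · convert sub_mem (a1 ((t / c + 1) / 2)) (a1 ((t / c - 1) / 2)) using 1
    field_simp; ring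

theorem tg_ext {R : F → G → Prop} (r1 : ∀ {s t a b}, R s a → R t b → R (s + t) (a * b))
    (r2 : ∀ {s a}, R s a → R (-s) a⁻¹) {h z a : G} {μ c : F} (r3 : ∀ {s a}, R s a → R (μ * s) (h * a * h⁻¹))
    (hμ : Gn μ) (hh : h ∈ K) (hz : Commute h z) (ha : R c a) (hc : c ≠ 0) (hK : a * z ∈ K) (t : F) :
    ∃ b ∈ K, R t b := by
  let S : AddSubgroup F :=
    { carrier := {t | ∃ b ∈ K, R t b}
      add_mem' := fun ⟨a, a1, a2⟩ ⟨b, b1, b2⟩ => ⟨_, mul_mem a1 b1, r1 a2 b2⟩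
      neg_mem' := fun ⟨a, a1, a2⟩ => ⟨_, inv_mem a1, r2 a2⟩
      zero_mem' := ⟨1, one_mem _, by simpa using r1 ha (r2 ha)⟩ }
  refine hμ.2 S (fun t ⟨b, b1, b2⟩ => ⟨_, mul_mem (mul_mem hh b1) (inv_mem hh), r3 b2⟩) (μ * c + -c)
    ⟨_, ?_, r1 (r3 ha) (r2 ha)⟩ (fun e => hμ.1 (mul_right_cancel₀ hc (by linear_combination e))) t
  convert mul_mem (mul_mem (mul_mem hh hK) (inv_mem hh)) (inv_mem hK) using 1
  rw [mul_assoc h (a * z), mul_assoc a, ← hz.inv_left.eq]; group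

theorem tg_ext' {f : F → G} (hf : ∀ a b, f (a + b) = f a * f b) {h z : G} {μ c : F}
    (h1 : ∀ t, h * f t * h⁻¹ = f (μ * t)) (hμ : Gn μ) (hh : h ∈ K) (hz : Commute h z) (hc : c ≠ 0) (hK : f c * z ∈ K)
    (t : F) : f t ∈ K := by
  have h0 : f 0 = 1 := by simpa using hf 0 0
  obtain ⟨_, a, rfl⟩ := tg_ext (R := fun t y => y = f t) (by rintro _ _ _ _ rfl rfl; rw [hf])
    (by rintro s _ rfl; rw [inv_eq_iff_mul_eq_one, ← hf, add_neg_cancel, h0]) (by rintro _ _ rfl; rw [h1]) hμ hh hz rfl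
    hc hK t
  exact a

theorem tg_half {f g : F → G} (hf : ∀ a b, f (a + b) = f a * f b) (hg : ∀ a b, g (a + b) = g a * g b)
    (hfg : ∀ a b, Commute (f a) (g b)) {h n : G} {μ μ' κ : F} (h1 : ∀ t, h * f t * h⁻¹ = f (μ * t))
    (h2 : ∀ t, Commute h (g t)) (h3 : ∀ t, n * h * n⁻¹ * f t * (n * h * n⁻¹)⁻¹ = f (μ' * t))
    (h4 : ∀ t, n * h * n⁻¹ * g t * (n * h * n⁻¹)⁻¹ = g (κ * t)) (h5 : Commute h (n * h * n⁻¹)) (hμ : Gn μ) (hμ' : μ' ≠ 1)
    (hh : h ∈ K) (hy : f 1 * g 1 * n ∈ K) : (∀ t, f t ∈ K) ∧ g (1 - κ) * (n * h * n⁻¹) ∈ K ∧ g 1 * n ∈ K := by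
  have i : ∀ {f : F → G}, (∀ a b, f (a + b) = f a * f b) → (f 1)⁻¹ = f (-1) := fun {f} hf => by
    rw [inv_eq_iff_mul_eq_one, ← hf, add_neg_cancel]; simpa using hf 0 0
  have e : f (1 - μ') * (g (1 - κ) * (n * h * n⁻¹)) ∈ K := by
    convert mul_mem (mul_mem hy hh) (inv_mem hy) using 1
    rw [sub_eq_add_neg, sub_eq_add_neg, hf, mul_assoc, (hfg _ _).left_comm, hg, ← mul_neg_one μ', ← mul_neg_one κ, ← h3,
      ← h4, ← i hf, ← i hg]
    group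
  have a := tg_ext' hf h1 hμ hh ((h2 _).mul_right h5) (sub_ne_zero.2 hμ'.symm) e
  exact ⟨a, (K.mul_mem_cancel_left (a _)).1 e, (K.mul_mem_cancel_left (a 1)).1 (mul_assoc (f 1) _ _ ▸ hy)⟩

theorem two_gen_of {G' : Type*} [Group G'] {Γ : Subgroup G} (f : G →* G') {Γ' : Subgroup G'} (e : Γ.map f = Γ') {a b : G}
    (ha : a ∈ Γ) (hb : b ∈ Γ) (h : ∀ K : Subgroup G, a ∈ K → b ∈ K → Γ ≤ K) :
    ∃ a b : Γ', Subgroup.closure {a, b} = ⊤ := by
  subst e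
  refine ⟨⟨f a, a, ha, rfl⟩, ⟨f b, b, hb, rfl⟩, eq_top_iff.2 ?_⟩
  rintro ⟨_, y, hy, rfl⟩ -
  obtain ⟨z, h1, h2⟩ := h (((Subgroup.closure {(⟨f a, a, ha, rfl⟩ : Γ.map f), ⟨f b, b, hb, rfl⟩}).map
    (Γ.map f).subtype).comap f) ⟨_, Subgroup.subset_closure (.inl rfl), rfl⟩ ⟨_, Subgroup.subset_closure (.inr rfl), rfl⟩ hy
  exact (Subtype.ext h2 : z = ⟨f y, y, hy, rfl⟩) ▸ h1

variable (D : ChevalleyDatum) in
/-- A certificate for the closure of a set of roots. -/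
def Cer (T : ℕ) (l : List ℕ) (ok : List ℕ → Bool) (M : List ℕ) : List (ℕ × ℕ × ℕ) → List ℕ → Prop
  | [], L => ∀ r ∈ M, r ∈ L
  | p :: C, L => p.1 ∈ L ∧ p.2.1 ∈ L ∧ (p.1 < D.nroots ∧ p.2.2 = wact T l p.1 ∨
      ok [p.1, p.2.1, p.2.2] ∧ ∃ ε ∈ [1, -1], CommIs D 0 p.1 p.2.1 [(p.2.2, ε, 1, 1)]) ∧ Cer T l ok M C (p.2.2 :: L)

instance instDecidableCer (D : ChevalleyDatum) (T : ℕ) (l : List ℕ) (ok : List ℕ → Bool) (M : List ℕ) :
    ∀ C L, Decidable (Cer D T l ok M C L)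
  | [], _ => by unfold Cer; infer_instance
  | p :: C, L => by unfold Cer; have := instDecidableCer D T l ok M C (p.2.2 :: L); infer_instance

variable {D : ChevalleyDatum} [Good D] {X : Sys D F G} {T : ℕ} {l : List ℕ} {n : G}

theorem Cer.full {ok : List ℕ → Bool} {M : List ℕ} (hT : IsRefl D T) (hl : ∀ i ∈ l, i < D.rank) {ν : G → G}
    (hν : ∀ L, ok L → ∀ y ∈ X.U {r | (r : ℕ) ∈ L}, ∀ z ∈ X.U {r | (r : ℕ) ∈ L}, ν (y * z) = ν y * ν z)
    (h1 : X.Mon n (wd D l)) (h2 : ∀ y, ν (n * y * n⁻¹) = n * ν y * n⁻¹) (hn : n ∈ K) :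
    ∀ {C L}, Cer D T l ok M C L → (∀ r ∈ L, ∀ t, ν (X.xN r t) ∈ K) → ∀ r ∈ M, ∀ t, ν (X.xN r t) ∈ K
  | [], _, h, H => fun r hr => H r (h r hr)
  | (r, s, k) :: _, _, ⟨a1, a2, a3, a4⟩, H => Cer.full hT hl hν h1 h2 hn a4 (List.forall_mem_cons.2 ⟨fun t => by
    dsimp only at a1 a2 a3 ⊢
    obtain ⟨b1, rfl⟩ | ⟨b1, ε, b2, b3⟩ := a3
    · obtain ⟨c, -, hc⟩ := h1
      rw [← hT.wd_smul hl ⟨r, b1⟩, xN_val, ← (c ⟨r, b1⟩).mul_inv_cancel_left t, ← hc, h2, ← xN_val]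
      exact mul_mem (mul_mem hn (H r a1 _)) (inv_mem hn)
    have m : ∀ a ∈ [r, s, k], ∀ t, X.xN a t ∈ X.U {a | (a : ℕ) ∈ [r, s, k]} := fun a ha => Sys.xN_mem ha
    have e := congrArg ν (X.xN_comm Nat.cast_zero b3 (-(ε * t)) 1)
    have e' : (ε : F) * (ε * t) = t := by
      simp only [List.mem_cons, List.not_mem_nil, or_false] at b2; rcases b2 with rfl | rfl <;> simp
    simp only [evT, List.map, gword_cons', gword_nil, mul_one, neg_neg, pow_one, e'] at e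
    rw [hν _ b1 _ (m s (by simp) _) _ (m r (by simp) _), hν _ b1 _ (mul_mem (m r (by simp) _) (m s (by simp) _)) _
      (m k (by simp) _), hν _ b1 _ (m r (by simp) _) _ (m s (by simp) _)] at e
    exact (K.mul_mem_cancel_left (mul_mem (H r a1 _) (H s a2 _))).1 (e ▸ mul_mem (H s a2 _) (H r a1 _)), H⟩)

theorem conj_chi {w : WG D} (hn : X.Mon n w) {h : G} {c : F} {r : Rt D} (hc : ∀ u, h * X.x r u * h⁻¹ = X.x r (c * u))
    (u : F) : n * h * n⁻¹ * X.x (w • r) u * (n * h * n⁻¹)⁻¹ = X.x (w • r) (c * u) := by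
  obtain ⟨d, -, hd⟩ := hn
  rw [← (d r).mul_inv_cancel_left u, mul_left_comm c, ← hd, ← hd, ← hc]; group

variable (D) in
/-- The simple roots and their negatives. -/
def tgt : List ℕ := (List.range D.rank).flatMap fun i => [D.simple i, D.neg (D.simple i)]

variable [Conn D]

theorem le_of_tgt (h : ∀ r ∈ tgt D, ∀ t, X.xN r t ∈ K) : X.U Set.univ ≤ K :=
  X.U_univ_le (fun j t => X.xN_val (sm j) t ▸ h _ (List.mem_flatMap.2 ⟨j, by simp, by simp [sm_val]⟩) t) fun j t =>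
    X.xN_val (ng (sm j)) t ▸ h _ (List.mem_flatMap.2 ⟨j, by simp, by simp [sm_val, ng_val]⟩) t

theorem commute_H (m : X.Mult) {y z : G} (hy : y ∈ X.H) (hz : z ∈ X.H) : Commute y z :=
  congrArg Subtype.val (m.isMulCommutative_H.is_comm.comm ⟨y, hy⟩ ⟨z, hz⟩)

variable (D) in
/-- The data for a field with at least three elements. -/
def Big (T : ℕ) (l : List ℕ) (i r s : ℕ) (C : List (ℕ × ℕ × ℕ)) : Prop := (∀ j ∈ l, j < D.rank) ∧ i < D.rank ∧
  r < D.nroots ∧ s < D.nroots ∧ (∀ a ∈ [r, wact T l r, s, wact T l (wact T l s)], D.cartan i a ∈ [1, -1]) ∧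
  D.cartan i (wact T l s) = 0 ∧ CommIs D 0 (wact T l s) (wact T l r) [] ∧
  Cer D T l (fun _ => true) (tgt D) C [wact T l r, wact T l s]

instance instDecidableBig (T : ℕ) (l : List ℕ) (i r s : ℕ) (C : List (ℕ × ℕ × ℕ)) : Decidable (Big D T l i r s C) := by
  unfold Big; infer_instance

theorem tg_big [Finite F] (m : X.Mult) (hT : IsRefl D T) (hF : ∃ x : F, x ≠ 0 ∧ x ≠ 1) {i r s : ℕ}
    {C : List (ℕ × ℕ × ℕ)} (H : Big D T l i r s C) :
    ∃ a ∈ X.U Set.univ, ∃ b ∈ X.U Set.univ, ∀ K : Subgroup G, a ∈ K → b ∈ K → X.U Set.univ ≤ K := by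
  obtain ⟨hl, hi, hr, hs, a1, a2, a3, a4⟩ := H
  obtain ⟨g, hg⟩ := IsCyclic.exists_generator (α := Fˣ)
  have b1 : ∀ a ∈ [r, wact T l r, s, wact T l (wact T l s)], Gn ((g ^ D.cartan i a : Fˣ) : F) := fun a ha => by
    have : g ≠ 1 := by
      rintro rfl
      obtain ⟨x, h0, h1⟩ := hF
      exact h1 (congrArg Units.val (by simpa using hg (Units.mk0 x h0) : Units.mk0 x h0 = 1))
    have := a1 a ha
    simp only [List.mem_cons, List.not_mem_nil, or_false] at this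
    exact gn_zpow hg (by rcases this with e | e <;> simp [e]) (by rcases this with e | e <;> simpa [e])
  obtain ⟨n, n1, n2⟩ := X.exists_mem_N (wd D l)
  have e := hT.wd_smul hl
  have c := fun (a : Rt D) u => X.h_conj (sm ⟨i, hi⟩) a g.ne_zero u
  simp only [A_sm, car, ← Units.val_zpow_eq_zpow_val] at c
  have h1 := X.h_mem_H (sm ⟨i, hi⟩) g.ne_zero
  simp only [List.forall_mem_cons, ← e ⟨r, hr⟩, ← e ⟨s, hs⟩, ← e (_ • _)] at b1 a2 a3 a4
  refine ⟨_, mul_mem (mul_mem (X.x_mem_U (Set.mem_univ (wd D l • ⟨r, hr⟩)) 1)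
    (X.x_mem_U (Set.mem_univ (wd D l • ⟨s, hs⟩)) 1)) (X.N_le_grp n1), _, X.B_le_grp (X.H_le_B h1), fun K k1 k2 => le_of_tgt ?_⟩
  have c0 : ∀ t, Commute (X.h (sm ⟨i, hi⟩) g) (X.x (wd D l • ⟨s, hs⟩) t) := fun t =>
    mul_inv_eq_iff_eq_mul.1 ((c _ t).trans (by simp [a2]))
  obtain ⟨d1, d2, d3⟩ := tg_half (X.add _) (X.add _) (fun a b => by
    simpa only [xN_val] using X.xN_commute Nat.cast_zero a3 b a) (c _) c0 (conj_chi n2 (c _)) (conj_chi n2 (c _))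
    (commute_H m h1 (n2.conj_mem_H h1)) b1.2.1 b1.1.1 k2 k1
  have d4 := tg_ext' (X.add _) (by simpa only [inv_smul_smul] using conj_chi n2.inv (c (wd D l • wd D l • ⟨s, hs⟩)))
    b1.2.2.2.1 (by
      convert mul_mem (mul_mem (inv_mem d3) k2) d3 using 1
      rw [mul_inv_rev, mul_assoc n⁻¹ _⁻¹, ← (c0 1).inv_right.eq]; group)
    (commute_H m (n2.inv.conj_mem_H h1) (n2.conj_mem_H h1)) (sub_ne_zero.2 b1.2.2.1.1.symm) d2
  exact a4.full (ν := id) hT hl (fun _ _ _ _ _ _ => rfl) n2 (fun _ => rfl) ((K.mul_mem_cancel_left (d4 1)).1 d3)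
    (by simpa only [List.forall_mem_cons, xN_val, id, List.not_mem_nil, false_imp_iff, implies_true, and_true] using ⟨d1, d4⟩)

variable (D) in
/-- The data for the field with two elements. -/
def Two (T : ℕ) (l : List ℕ) (r s k u : ℕ) (L : List ℕ) (C C' : List (ℕ × ℕ × ℕ)) : Prop := (∀ j ∈ l, j < D.rank) ∧
  CommIs D 2 s r [] ∧ CommIs D 2 (D.neg s) r [] ∧ CommIs D 2 k (D.neg s) [] ∧ k ≠ D.neg s ∧ trm D s k = u :: L ∧
  Cer D T l (fun _ => true) (k :: L) C [r] ∧ Cer D T l (fun _ => true) (tgt D) C' [r, u]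

instance instDecidableTwo (T : ℕ) (l : List ℕ) (r s k u : ℕ) (L : List ℕ) (C C' : List (ℕ × ℕ × ℕ)) :
    Decidable (Two D T l r s k u L C C') := by
  unfold Two; infer_instance

theorem tg_two (hT : IsRefl D T) (hF : ∀ x : F, x = 0 ∨ x = 1) {r s k u : ℕ} {L : List ℕ}
    {C C' : List (ℕ × ℕ × ℕ)} (H : Two D T l r s k u L C C') :
    ∃ a ∈ X.U Set.univ, ∃ b ∈ X.U Set.univ, ∀ K : Subgroup G, a ∈ K → b ∈ K → X.U Set.univ ≤ K := by
  obtain ⟨hl, a1, a2, a3, a4, a5, a6, a7⟩ := H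
  have hp : ((2 : ℕ) : F) = 0 := by simpa [one_add_one_eq_two] using (hF (1 + 1)).resolve_right (by simp)
  have := ringChar.of_eq (CharP.ringChar_of_prime_eq_zero Nat.prime_two hp)
  obtain ⟨n, n1, n2⟩ := X.exists_mem_N (wd D l)
  lift s to Rt D using a1.1
  lift k to Rt D using a3.1
  rw [← ng_val] at a2 a3 a4
  refine ⟨n, X.N_le_grp n1, X.xN r 1 * (X.x s 1 * X.x (ng s) 1), mul_mem (by simpa [w1] using X.w1_mem_univ [r])
    (mul_mem (X.x_mem_U (Set.mem_univ _) _) (X.x_mem_U (Set.mem_univ _) _)), fun K k1 k2 => le_of_tgt ?_⟩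
  have f : ∀ {a}, X.xN a 1 ∈ K → ∀ t, X.xN a t ∈ K := fun h t => by
    rcases hF t with rfl | rfl
    exacts [by rw [xN_zero]; exact one_mem _, h]
  have i : ∀ a : Rt D, X.x a 1 * X.x a 1 = 1 := fun a => X.xN_val a 1 ▸ X.xN_mul_self a 1
  have b1 : (X.x s 1 * X.x (ng s) 1) ^ 3 = 1 := by
    have := X.n_conj_one s s
    rw [refl_self, Sys.n, inv_one, CharTwo.neg_eq] at this
    simp only [mul_inv_rev, inv_eq_of_mul_eq_one_right (i _), mul_assoc, ← mul_assoc (X.x s 1) (X.x s 1), i, one_mul] at this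
    rw [← i (ng s)]
    nth_rewrite 2 [← this]
    simp only [pow_succ, pow_zero, one_mul, mul_assoc]
  have b2 : X.xN r 1 ∈ K := by
    have c : Commute (X.xN r 1) (X.x s 1 * X.x (ng s) 1) := (X.xN_val s 1 ▸ X.xN_commute hp a1 1 1).mul_right
      (X.xN_val (ng s) 1 ▸ X.xN_commute hp a2 1 1)
    have := pow_mem k2 3
    rwa [c.mul_pow, b1, mul_one, pow_three, X.xN_mul_self, mul_one] at this
  have b3 := (K.mul_mem_cancel_left b2).1 k2
  have full := fun {M C L} => Cer.full (M := M) (C := C) (L := L) (ν := id) (ok := fun _ => true) hT hl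
    (fun _ _ _ _ _ _ => rfl) n2 (fun _ => rfl) k1
  have b4 := List.forall_mem_cons.1 (full a6 (by simpa using f b2))
  have b5 := mul_mem (mul_mem b3 (b4.1 1)) (inv_mem b3)
  have c := X.xN_commute hp a3 1 1
  rw [xN_val, xN_val] at c
  rw [id, xN_val, mul_assoc _ _ (X.x k 1), c.eq, mul_inv_rev, ← mul_assoc, ← mul_assoc, mul_inv_cancel_right,
    X.x_conj_one fun e => a4 (congrArg Fin.val e), a5, w1_cons, w1_cons, K.mul_mem_cancel_left (show X.xN k 1 ∈ K from b4.1 1),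
    K.mul_mem_cancel_right (w1_mem (X := X) fun a ha => b4.2 a ha 1)] at b5
  exact full a7 (by simpa using ⟨f b2, f b5⟩)

theorem two_gen_chev [Finite F] (hT : IsRefl D T) {i r s : ℕ} {C : List (ℕ × ℕ × ℕ)} (H : Big D T l i r s C)
    (H' : (∃ x : F, x ≠ 0 ∧ x ≠ 1) ∨ ∃ l r s k u L C C', Two D T l r s k u L C C') :
    ∃ a b : D.group F, Subgroup.closure {a, b} = ⊤ := by
  obtain ⟨a, ha, b, hb, h⟩ : ∃ a ∈ (adS D F).U Set.univ, ∃ b ∈ (adS D F).U Set.univ, ∀ K : Subgroup _, a ∈ K → b ∈ K →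
      (adS D F).U Set.univ ≤ K := by
    by_cases hF : ∃ x : F, x ≠ 0 ∧ x ≠ 1
    · exact tg_big (adS_mult D F) hT hF H
    · obtain ⟨_, _, _, _, _, _, _, _, h⟩ := H'.resolve_left hF
      exact tg_two hT (fun x => by by_contra e; exact hF ⟨x, not_or.1 e⟩) h
  exact two_gen_of (.id _) ((Subgroup.map_id _).trans (group_eq D F).symm) ha hb h

end Cfsg.Agent.Mult
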