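import Cfsg.Agent.Mult.Tg1
import Cfsg.Agent.ChAut.TwF4

/-! Two generators for the twisted groups ²E₆(q), ³D₄(q), ²F₄(q) (`two_gen_E6`, `two_gen_D4`, `two_gen_F4`). -/

set_option autoImplicit false

namespace Cfsg.Agent.Mult

open Cfsg.Lie Cfsg.Agent.Chev Cfsg.Agent.Chev.Sys Cfsg.Agent.ChAut

attribute [-simp] zsmul_eq_mul

variable {F : Type*} [Field F] {G : Type*} [Group G] {K : Subgroup G} {D : ChevalleyDatum} [Good D] {X : Sys D F G}

variable (D) in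
/-- The roots of `L` commute with their images under `ι`. -/
def okI (ι : ℕ → ℕ) (L : List ℕ) : Bool := decide (∀ a ∈ L, ∀ b ∈ L, a = ι b ∨ CommIs D 0 (ι b) a [])

theorem commute_okI {σ : G →* G} {ι : ℕ → ℕ} (hσ : ∀ r : Rt D, ∀ t, ∃ u, σ (X.x r t) = X.xN (ι r) u) {L : List ℕ}
    (h : okI D ι L) {y z : G} (hy : y ∈ X.U {r | (r : ℕ) ∈ L}) (hz : z ∈ X.U {r | (r : ℕ) ∈ L}) : Commute y (σ z) := by
  refine X.U_induction (P := fun y => Commute y (σ z)) (.one_left _) (fun r hr t y _ ih => ih.mul_left ?_) hy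
  refine X.U_induction (P := fun z => Commute (X.x r t) (σ z)) (by simp) (fun s hs u z _ ih => ?_) hz
  obtain ⟨v, e⟩ := hσ s u
  rw [map_mul, e, ← xN_val]
  exact (X.xN_val r t ▸ ih).mul_right (commute_xN Nat.cast_zero (of_decide_eq_true h r hr s hs) _ _)

theorem exists_σ_x {S : Sym D} (α : X.Aut S) {ι : ℕ → ℕ} (hS : ∀ r, (S.ρ r : ℕ) = ι r) (r : Rt D) (t : F) :
    ∃ u, α.σ (X.x r t) = X.xN (ι r) u := ⟨_, by rw [α.σ_x, ← xN_val, hS]⟩

theorem tg_tw [Conn D] (m : X.Mult) {T : ℕ} (hT : IsRefl D T) {l M : List ℕ} (hl : ∀ i ∈ l, i < D.rank) {ν : G → G}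
    {ok : List ℕ → Bool} (hν : ∀ L, ok L → ∀ y ∈ X.U {r | (r : ℕ) ∈ L}, ∀ z ∈ X.U {r | (r : ℕ) ∈ L}, ν (y * z) = ν y * ν z)
    {Γ : Subgroup G} (hΓ : ∀ g ∈ Γ, ∀ y, ν (g * y * g⁻¹) = g * ν y * g⁻¹) {n : G} (n1 : n ∈ Γ) (n2 : X.Mon n (wd D l))
    {a : Sm D → Fˣ} (ha : m.tor a ∈ Γ) {r s : Rt D} {C : List (ℕ × ℕ × ℕ)}
    (H : (s : ℕ) = wact T l r ∧ ok [s] ∧ Cer D T l ok M C [s]) (h1 : Gn (chi a s : F)) (h2 : chi a r ≠ 1)
    (k1 : ν (X.x s 1) * n ∈ K) (k2 : m.tor a ∈ K) : ∀ r ∈ M, ∀ t, ν (X.xN r t) ∈ K := by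
  obtain rfl : s = wd D l • r := Fin.ext (H.1.trans (hT.wd_smul hl r).symm)
  obtain ⟨d1, -, d2⟩ := tg_half (f := fun t => ν (X.x (wd D l • r) t)) (g := fun _ => 1) (κ := 0)
    (fun a b => by rw [X.add, hν _ H.2.1 _ (X.x_mem_U (by simp) _) _ (X.x_mem_U (by simp) _)]) (by simp) (by simp)
    (fun t => by rw [← hΓ _ ha, m.tor_conj]) (by simp)
    (fun t => by rw [← hΓ _ (mul_mem (mul_mem n1 ha) (inv_mem n1)), conj_chi n2 (m.tor_conj a r)]) (by simp)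
    (commute_H m (m.tor_mem_H a) (n2.conj_mem_H (m.tor_mem_H a))) h1 (fun e => h2 (Units.ext e)) k2 (by simpa)
  exact H.2.2.full hT hl hν n2 (hΓ n n1) (by simpa using d2) (by simpa [xN_val] using d1)

theorem zpow_ne_one [Finite F] {g : Fˣ} (hg : ∀ x, x ∈ Subgroup.zpowers g) {k : ℤ} (h0 : k ≠ 0)
    (h : |k| + 1 < Nat.card F) : g ^ k ≠ 1 := fun e => by
  have := Int.le_of_dvd (abs_pos.2 h0) ((dvd_abs _ _).2 (orderOf_dvd_iff_zpow_eq_one.2 e))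
  rw [orderOf_eq_card_of_forall_mem_zpowers hg, Nat.card_units] at this
  omega

theorem exists_tr [Finite F] {f : F → F} {φ : F →+* F} (h1 : ∀ a t, φ t = t → f (a * t) = f a * t) (h2 : ∀ a, φ (f a) = f a)
    (h3 : ∃ a, f a ≠ 0) {t : F} (ht : φ t = t) : ∃ a, f a = t :=
  let ⟨a, ha⟩ := h3
  ⟨a * (t / f a), by rw [h1 _ _ (by rw [map_div₀, ht, h2]), mul_div_cancel₀ _ ha]⟩

theorem exists_poly_ne [Finite F] {L : List ℕ} (h1 : L.Nodup) (h2 : ∀ k ∈ L, k < Nat.card F) (h3 : L ≠ []) :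
    ∃ a : F, (L.map (a ^ ·)).sum ≠ 0 := not_forall.1 fun h => by
  obtain ⟨k, L, rfl⟩ := List.exists_cons_of_ne_nil h3
  simpa using mem_of_poly (W := (⊥ : Submodule F F)) (L := (k :: L).map (·, 1)) (by simpa [Function.comp_def] using h1)
    (by simpa using h2) (fun t => by simpa [Function.comp_def] using h t) (k, 1) (by simp)

theorem two_gen_E6 [Finite F] {q : ℕ} (hq : IsPrimePow q) (hF : Nat.card F = q ^ 2) :
    ∃ a b : twistedE6 F q, Subgroup.closure {a, b} = ⊤ := by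
  obtain ⟨φ, h1, h2⟩ := exists_φE6 hq hF
  obtain ⟨g, hg⟩ := IsCyclic.exists_generator (α := Fˣ)
  have h := genE6 h1 h2
  have q2 := hq.two_le
  obtain ⟨n, -, n2, n1⟩ := h.fold.exists_N (w := wd chevE6 [1, 3, 2, 4, 0, 5]) (by
    have := fun i l e => symE6.w1_eq isReflE6 i (l := l) e ▸ symE6.w1_mem i
    simpa only [← wd_append, List.cons_append, List.nil_append] using mul_mem (this ⟨1, by decide⟩ [1] (by decide +kernel)) (mul_mem
      (this ⟨3, by decide⟩ [3] (by decide +kernel)) (mul_mem (this ⟨2, by decide⟩ [2, 4] (by decide +kernel))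
        (this ⟨0, by decide⟩ [0, 5] (by decide +kernel)))))
  let a : Fin 6 → Fˣ := ![1, 1, g, 1, Units.map (φ : F →* F) g, 1]
  have ha := tor_memE6 h1 (a := a) ((mem_fixTE6 h1).2 fun i => by fin_cases i <;> simp [a, ← h1, h2])
  have e := fun r s k t => twE6_ok.σ_xN symE6_ρ Nat.cast_zero φ (r := r) (s := s) (k := 1) k t
  simp only [pow_one] at e
  have c : ∀ (r : Rt chevE6) (k : ℤ), car (4 : Fin 6) r = 0 ∧ car (2 : Fin 6) r = k → chi a r = g ^ k :=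
    fun r k e => (Fin.prod_univ_six fun i => a i ^ car i r).trans (by simp [a, e.1, e.2])
  refine two_gen_of _ ((stCover _ F).map_genW _) (mul_mem (mem_genW (.inr ⟨1, (e6p3, e6p5), by simp, rfl⟩)) n1) ha
    fun K k1 k2 => genW_le ?_
  have := tg_tw (stS_mult _ F) isReflE6 (by decide) (ν := fun y => y * (αE6 φ).σ y) (ok := okI chevE6 twE6.ι)
    (fun L hL y hy z hz => by
      simp only [map_mul, mul_assoc, (commute_okI (exists_σ_x (αE6 φ) symE6_ρ) hL hz hy).left_comm])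
    (fun g hg y => by simp [Aut.mem_fix.1 (h.le hg), mul_assoc]) n1 n2 ha (r := ⟨41, by decide⟩) (s := ⟨42, by decide⟩)
    (M := [46, 25, 39, 32, 56, 15, 42, 29]) (C := [(42, 42, 56), (56, 56, 10), (10, 10, 31), (31, 31, 19), (19, 19, 13),
      (13, 13, 34), (34, 34, 35), (35, 35, 49), (49, 49, 43), (43, 43, 62), (56, 43, 58), (10, 62, 37), (10, 58, 25),
      (31, 35, 30), (31, 37, 32), (19, 49, 29), (13, 43, 15), (49, 30, 46), (43, 29, 39)]) (by decide +kernel)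
    (c ⟨42, by decide⟩ 2 (by decide +kernel) ▸ gn_zpow hg dvd_rfl (zpow_ne_one hg two_ne_zero (by rw [hF]; push_cast; norm_num; nlinarith)))
    (c ⟨41, by decide⟩ (-1) (by decide +kernel) ▸ zpow_ne_one hg (by simp) (by rw [hF]; push_cast; norm_num; nlinarith))
    (by rw [← xN_val, e 42 37 (by decide)]; simpa [gword_cons', e6p3, e6p5] using k1) k2
  rintro _ (⟨t, ht, r, hr, rfl⟩ | ⟨t, r, hr, rfl⟩)
  · obtain ⟨u, rfl⟩ := exists_tr (f := fun u => u + φ u) (φ := φ) (fun a t e => by simp [e, add_mul])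
      (fun a => by simp [h2, add_comm]) (by
        simpa [h1] using exists_poly_ne (F := F) (L := [1, q]) (by simp; omega) (by simp [hF]; constructor <;> nlinarith)
          (by simp)) ((h1 t).trans ht)
    have hr' := (by decide : ∀ r ∈ [e6p2, e6m2, e6p4, e6m4], r ∈ [46, 25, 39, 32, 56, 15, 42, 29] ∧
      twE6.Mv chevE6 r r 1) r hr
    simpa [e _ _ hr'.2, xN_add, gword_cons'] using this r hr'.1 u
  · have hr' := (by decide : ∀ r ∈ [(e6p1, e6p6), (e6m1, e6m6), (e6p3, e6p5), (e6m3, e6m5)],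
      r.1 ∈ [46, 25, 39, 32, 56, 15, 42, 29] ∧ twE6.Mv chevE6 r.1 r.2 1) r hr
    simpa [e _ _ hr'.2, gword_cons', h1] using this _ hr'.1 t

theorem two_gen_D4 [Finite F] {q : ℕ} (hq : IsPrimePow q) (hF : Nat.card F = q ^ 3) :
    ∃ a b : twistedD4 F q, Subgroup.closure {a, b} = ⊤ := by
  obtain ⟨φ, h1, h2⟩ := exists_φD4 hq hF
  obtain ⟨g, hg⟩ := IsCyclic.exists_generator (α := Fˣ)
  have h := genD4 h1 h2
  have q2 := hq.two_le
  have q3 : q ^ 2 + q < q ^ 3 := by nlinarith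
  obtain ⟨n, -, n2, n1⟩ := h.fold.exists_N (mul_mem (symD4.w1_mem ⟨1, by decide⟩) (symD4.w1_mem ⟨0, by decide⟩))
  rw [w1D4_1, w1D4_0, ← wd_append] at n2
  let a : Fin 4 → Fˣ := ![g, 1, g ^ q, g ^ q ^ 2]
  have ha := tor_memD4 h1 (a := a) (mem_fixTD4.2 (by simp [a, sq, pow_mul, ← h1, h2]))
  have e := fun r s k t => twD4_ok.σ_xN symD4_ρ Nat.cast_zero φ (r := r) (s := s) (k := 1) k t
  simp only [pow_one] at e
  have c : ∀ r : Rt chevD4, chi a r = g ^ (car (0 : Fin 4) r + q * car (2 : Fin 4) r + q ^ 2 * car (3 : Fin 4) r) :=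
    fun r => (Fin.prod_univ_four fun i => a i ^ car i r).trans (by simp [a, zpow_add, zpow_mul, ← zpow_natCast])
  refine two_gen_of _ ((stCover _ F).map_genW _) (mul_mem (mem_genW (.inr ⟨1, (d4p1, d4p3, d4p4), by simp, rfl⟩)) n1) ha
    fun K k1 k2 => genW_le ?_
  have := tg_tw (stS_mult _ F) isReflD4 (by decide) (ν := fun y => y * ((αD4 φ).σ y * (αD4 φ).σ ((αD4 φ).σ y)))
    (ok := fun L => okI chevD4 twD4.ι L && okI chevD4 (twD4.ι ∘ twD4.ι) L)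
    (fun L hL y hy z hz => by
      rw [Bool.and_eq_true] at hL
      have c1 := commute_okI (exists_σ_x (αD4 φ) symD4_ρ) hL.1 hz hy
      have c2 : Commute z ((αD4 φ).σ ((αD4 φ).σ y)) := commute_okI (σ := (αD4 φ).σ.comp (αD4 φ).σ) (fun r t => ⟨_, by
        rw [MonoidHom.comp_apply, Aut.σ_x, Aut.σ_x, ← xN_val, symD4_ρ, symD4_ρ]; rfl⟩) hL.2 hz hy
      simp only [map_mul, mul_assoc, c1.left_comm, c2.left_comm, (c1.map (αD4 φ).σ).left_comm])
    (fun g hg y => by simp [Aut.mem_fix.1 (h.le hg), mul_assoc]) n1 n2 ha (r := ⟨17, by decide⟩) (s := ⟨18, by decide⟩)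
    (M := [14, 9, 18, 5]) (C := [(18, 18, 4), (4, 4, 6), (6, 6, 5), (5, 5, 19), (18, 4, 9), (5, 19, 14)])
    (by decide +kernel) (by
      have : car (D := chevD4) (0 : Fin 4) ⟨18, by decide⟩ = 2 ∧ car (D := chevD4) (2 : Fin 4) ⟨18, by decide⟩ = 0 ∧
        car (D := chevD4) (3 : Fin 4) ⟨18, by decide⟩ = 0 := by decide +kernel
      simp only [c, this, mul_zero, add_zero]
      exact gn_zpow hg dvd_rfl (zpow_ne_one hg two_ne_zero (by rw [hF]; norm_cast; nlinarith)))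
    (by
      have : car (D := chevD4) (0 : Fin 4) ⟨17, by decide⟩ = -1 ∧ car (D := chevD4) (2 : Fin 4) ⟨17, by decide⟩ = 1 ∧
        car (D := chevD4) (3 : Fin 4) ⟨17, by decide⟩ = 1 := by decide +kernel
      simp only [c, this, mul_one]
      exact zpow_ne_one hg (by nlinarith) (by rw [hF, abs_of_pos (by nlinarith)]; zify at q3 ⊢; linarith))
    (by rw [← xN_val, e 18 13 (by decide), e 13 12 (by decide)]; simpa [gword_cons', d4p1, d4p3, d4p4] using k1) k2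
  rintro _ (⟨t, ht, r, hr, rfl⟩ | ⟨t, r, hr, rfl⟩)
  · obtain ⟨u, rfl⟩ := exists_tr (f := fun u => u + (φ u + φ (φ u))) (φ := φ) (fun a t e => by simp [e, add_mul])
      (fun a => by simp only [map_add, h2]; ring) (by
        simpa [h1, ← pow_mul, ← sq] using exists_poly_ne (F := F) (L := [1, q, q ^ 2]) (by
          simp; refine ⟨⟨?_, ?_⟩, ?_⟩ <;> nlinarith) (by simp [hF]; omega) (by simp)) ((h1 t).trans ht)
    have hr' := (by decide : ∀ r ∈ [d4p2, d4m2], r ∈ [14, 9, 18, 5] ∧ twD4.Mv chevD4 r r 1) r hr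
    simpa [e _ _ hr'.2, xN_add, gword_cons'] using this r hr'.1 u
  · have hr' := (by decide : ∀ r ∈ [(d4p1, d4p3, d4p4), (d4m1, d4m3, d4m4)],
      r.1 ∈ [14, 9, 18, 5] ∧ twD4.Mv chevD4 r.1 r.2.1 1 ∧ twD4.Mv chevD4 r.2.1 r.2.2 1) r hr
    simpa [e _ _ hr'.2.1, e _ _ hr'.2.2, gword_cons', h1, sq, pow_mul] using this _ hr'.1 t

local notation "𝐗" => adS chevF4 F

theorem two_gen_F4 [Finite F] {m : ℕ} (hm : 1 ≤ m) (hF : Nat.card F = 2 ^ (2 * m + 1)) :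
    ∃ a b : twistedF4 F (2 ^ m), Subgroup.closure {a, b} = ⊤ := by
  obtain ⟨hp, φ, h1, h2⟩ := exists_sqrt_hom Nat.prime_two hF
  have := ringChar.of_eq (CharP.ringChar_of_prime_eq_zero Nat.prime_two hp)
  obtain ⟨g, hg⟩ := IsCyclic.exists_generator (α := Fˣ)
  have gn : ∀ k : ℤ, k ∣ 2 → Gn ((g ^ k : Fˣ) : F) := fun k hk => gn_zpow hg hk (zpow_ne_one hg (by rintro rfl; simp at hk) (by
    have := Int.le_of_dvd two_pos ((abs_dvd _ _).2 hk)
    have : 2 ^ 2 ≤ Nat.card F := hF ▸ Nat.pow_le_pow_right two_pos (by omega)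
    omega))
  obtain ⟨n, -, n2, n1⟩ := (foldF4 hp h1 h2).exists_N (mul_mem (symF4.w1_mem ⟨1, by decide⟩) (symF4.w1_mem ⟨0, by decide⟩))
  rw [w1F4, w1F4, ← wd_append, show _ ++ _ = [1, 2, 1, 2, 0, 3] from rfl] at n2
  have M : Sys.Mult 𝐗 := adS_mult chevF4 F
  have ha : M.tor (paramF4 φ (g, 1)) ∈ twistedF4 F (2 ^ m) := ((stCover _ F).map_genW _).le ⟨_, tor_memF4 hp h1 h2 _, by
    rw [Sys.Mult.map_tor]; congr 2; exact (stCover _ F).map_eq⟩
  have hw := fun r s : Rt chevF4 => fun e : wact reflF4 [1, 2, 1, 2, 0, 3] r = s =>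
    (Fin.ext ((isReflF4.wd_smul (by decide) r).trans e) : wd chevF4 [1, 2, 1, 2, 0, 3] • r = s)
  have c : ∀ (r : Rt chevF4) (i j : ℤ), chevF4.cartan 0 r = i ∧ chevF4.cartan 3 r = j → ∀ u, M.tor (paramF4 φ (g, 1)) *
      (𝐗).x r u * (M.tor (paramF4 φ (g, 1)))⁻¹ = (𝐗).x r (φ g ^ i * g ^ j * u) := fun r i j e u => by
    simp [M.tor_conj, (chi_paramF4 g r).1, e]
  have cs : ∀ y, (∀ p ∈ ([(⟨27, by decide⟩, -1, 0), (⟨25, by decide⟩, 0, -1), (⟨28, by decide⟩, -1, -1),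
      (⟨30, by decide⟩, -2, -1)] : List (Rt chevF4 × ℤ × ℤ)), ∀ u, y * (𝐗).x p.1 u * y⁻¹ = (𝐗).x p.1 (φ g ^ p.2.1 * g ^ p.2.2 * u)) →
      ∀ t u, ∃ v, y * sz φ 27 25 28 30 t u * y⁻¹ = sz φ 27 25 28 30 ((g ^ (-1 : ℤ) : Fˣ) * t) v := fun y h t u => by
    simp only [List.forall_mem_cons, ← xN_val] at h
    exact ⟨_, conj_sz h2 (α := MulAut.conj y) (τ := .id F) (fun _ => rfl) (by simpa using h.1) (by simpa using h.2.1)
      (by simpa using h.2.2.1) (by simpa [zpow_ofNat] using h.2.2.2.1) t u⟩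
  have c1 := cs (M.tor (paramF4 φ (g, 1))) fun p hp => c _ _ _ (by revert p; decide +kernel)
  have c2 := cs (n * M.tor (paramF4 φ (g, 1)) * n⁻¹) fun p hp => by
    obtain ⟨r, e, e'⟩ : ∃ r : Rt chevF4, wact reflF4 [1, 2, 1, 2, 0, 3] r = p.1 ∧ chevF4.cartan 0 r = p.2.1 ∧
      chevF4.cartan 3 r = p.2.2 := by revert p; decide +kernel
    exact hw r _ e ▸ conj_chi n2 (c r _ _ e')
  have m1 : ∀ t u, sz φ 27 25 28 30 t u ∈ Up1 𝐗 symF4 ⟨1, by decide⟩ ⊓ twistedF4 F (2 ^ m) := fun t u =>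
    ⟨gword_mem' _ rfl fun r hr => (orbF4_1.1.2.2 r).1 hr, ((memF4 h1).2 t u).1⟩
  refine two_gen_of (.id _) (Subgroup.map_id _) (mul_mem (m1 1 0).2 n1) ha fun K k1 k2 => ?_
  have r1 : ∀ {s t a b}, (∃ u, a = sz φ 27 25 28 30 s u) → (∃ u, b = sz φ 27 25 28 30 t u) →
      ∃ u, a * b = sz φ 27 25 28 30 (s + t) u := by
    rintro _ _ _ _ ⟨_, rfl⟩ ⟨_, rfl⟩; exact ⟨_, sz_mul hp h2 ..⟩
  have r2 : ∀ {s a}, (∃ u, a = sz φ 27 25 28 30 s u) → ∃ u, a⁻¹ = sz φ 27 25 28 30 (-s) u := by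
    rintro s _ ⟨u, rfl⟩
    refine ⟨u + φ s * s, inv_eq_of_mul_eq_one_right ?_⟩
    rw [CharTwo.neg_eq, sz_mul hp h2, add_assoc, add_assoc, CharTwo.add_self_eq_zero, CharTwo.add_self_eq_zero, add_zero,
      CharTwo.add_self_eq_zero]
    simp [sz, gword_cons', xN_zero]
  have b1 := tg_ext (R := fun t y => ∃ u, y = sz φ 27 25 28 30 t u) r1 r2 (by rintro _ _ ⟨u, rfl⟩; exact c1 ..)
    (gn (-1) (by simp)) k2 (commute_H M (M.tor_mem_H _) (n2.conj_mem_H (M.tor_mem_H (paramF4 φ (g, 1)))))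
    (r1 (s := 1) ⟨0, rfl⟩ (let ⟨u, e⟩ := r2 (s := 1) ⟨0, rfl⟩; e ▸ c2 _ u))
    (by rw [mul_neg_one, ← sub_eq_add_neg]; exact sub_ne_zero.2 (gn (-1) (by simp)).1.symm) (by
      convert mul_mem (mul_mem k1 k2) (inv_mem k1) using 1
      simp [mul_assoc])
  have b2 : ∀ t u, sz φ 27 25 28 30 t u ∈ K := fun t u => by
    obtain ⟨_, a1, v, rfl⟩ := b1 t
    obtain ⟨s, hs⟩ := Finite.surjective_of_injective (f := fun z => φ z * z) (fun z z' e => by
      have e1 := congrArg (fun z => φ z ^ 2) e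
      simp only [map_mul, mul_pow, h2] at e1
      have e2 := congrArg (· ^ 2) e
      simp only [mul_pow] at e e2
      by_cases h : z' = 0
      · simpa [h] using e
      exact mul_left_cancel₀ (show φ z' ^ 2 * z' ≠ 0 by simp [h]) (by linear_combination e2 - z * e1)) (v + u)
    obtain ⟨_, a2, w, rfl⟩ := b1 s
    simpa [sz_mul hp h2, CharTwo.add_self_eq_zero, hs, ← add_assoc] using mul_mem a1 (mul_mem a2 a2)
  have b3 := (K.mul_mem_cancel_left (b2 _ _)).1 k1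
  let FT : List ℕ → Prop := fun Z => ∀ y ∈ (𝐗).U {r | (r : ℕ) ∈ Z}, y ∈ twistedF4 F (2 ^ m) → y ∈ K
  have st : ∀ {Z} Z', FT Z → (∀ r : Rt chevF4, wact reflF4 [1, 2, 1, 2, 0, 3] r ∈ Z' → (r : ℕ) ∈ Z) → FT Z' :=
    fun Z' a e y b1 b2 => by
      simpa [mul_assoc] using mul_mem (mul_mem b3 (a _ (n2.inv.conj_mem_U (fun r hr => e _ (by
        rwa [← isReflF4.wd_smul (by decide), smul_inv_smul])) b1) (mul_mem (mul_mem (inv_mem n1) b2)
          (inv_mem (inv_mem n1))))) (inv_mem b3)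
  have z0 : FT [27, 25, 28, 30] := fun y a b => by
    obtain ⟨⟨t, u⟩, e⟩ := mem_iff_of_card (e := fun t : F × F => ⟨_, (m1 t.1 t.2).2⟩)
      (fun a b e => Prod.ext (sz_inj (congrArg Subtype.val e)).1 (sz_inj (congrArg Subtype.val e)).2)
      (fun t => (m1 t.1 t.2).1) (card_F41 hp h1 h2) (u := ⟨y, b⟩) ((𝐗).U_mono (fun r => (orbF4_1.1.2.2 r).1) a)
    exact (show y = sz φ 27 25 28 30 t u from congrArg Subtype.val e) ▸ b2 t u
  have z3 := st [34, 26, 36, 42] (st [29, 41, 44, 47] (st [35, 31, 40, 46] z0 (by decide +kernel)) (by decide +kernel))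
    (by decide +kernel)
  have z4 := st [20, 22, 19, 17] z3 (by decide +kernel)
  have z7 := st [13, 21, 11, 5] (st [18, 6, 3, 0] (st [12, 16, 7, 1] z4 (by decide +kernel)) (by decide +kernel))
    (by decide +kernel)
  have wK : ∀ {Z} L, FT Z → (∀ r ∈ L, r < chevF4.nroots ∧ r ∈ Z) ∧
      nf chevF4 (nf chevF4 (L.map twF4.ι)) = nf chevF4 (nf chevF4 L) → (𝐗).w1 L ∈ K := fun L a e =>
    a _ (w1_mem fun r hr => Sys.xN_mem (e.1 r hr).2 1) ((fix_mapF4 hp h1 h2).le ⟨(stS chevF4 F).w1 L, Aut.mem_fix.2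
      (((αF4 φ hp).w1_mem' (fun r => (twF4_ok.a_eq hp φ r 1).trans (by simp)) symF4_ρ fun r hr => (e.1 r hr).1).trans
        (w1_eq_of_nf e.2)), by rw [Sys.map_w1, (stCover _ F).map_eq]⟩)
  have pr : ∀ (r s : Rt chevF4) (k : ℤ), k ∣ 2 ∧ CommIs chevF4 2 r s [] ∧ (chevF4.cartan 0 r = k ∧ chevF4.cartan 3 r = 0) ∧
      chevF4.cartan 0 s = 0 ∧ chevF4.cartan 3 s = k → (𝐗).w1 [r, s] ∈ K → ∀ t, (𝐗).xN r (φ t) * (𝐗).xN s t ∈ K :=
    fun r s k e a => tg_ext' (f := fun t => (𝐗).xN r (φ t) * (𝐗).xN s t) (fun a b => by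
      simp only [map_add, ← xN_add, mul_assoc, ((𝐗).xN_commute hp e.2.1 _ _).left_comm]) (fun t => by
        rw [← conj_mul, xN_val, xN_val, xN_val, xN_val, c r _ _ e.2.2.1, c s _ _ e.2.2.2]; simp)
      (gn k e.1) k2 (.one_right _) one_ne_zero (by simpa [w1] using a)
  have cm : ∀ {Z Z'} (A B : List ℕ) {L}, FT Z → FT Z' → (∀ L ∈ [A, A.reverse], (∀ r ∈ L, r < chevF4.nroots ∧ r ∈ Z) ∧
      nf chevF4 (nf chevF4 (L.map twF4.ι)) = nf chevF4 (nf chevF4 L)) ∧ (∀ L ∈ [B, B.reverse],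
        (∀ r ∈ L, r < chevF4.nroots ∧ r ∈ Z') ∧ nf chevF4 (nf chevF4 (L.map twF4.ι)) = nf chevF4 (nf chevF4 L)) ∧
      nf chevF4 (nf chevF4 (A ++ B ++ A.reverse ++ B.reverse)) = nf chevF4 (nf chevF4 L) → (𝐗).w1 L ∈ K :=
    fun A B L a b e => by
      rw [← w1_eq_of_nf e.2.2, w1_append, w1_append, w1_append]
      exact mul_mem (mul_mem (mul_mem (wK _ a (e.1 _ (by simp))) (wK _ b (e.2.1 _ (by simp)))) (wK _ a (e.1 _ (by simp))))
        (wK _ b (e.2.1 _ (by simp)))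
  rw [twistedF4, genSubgroup_eq]
  refine genW_le ?_
  rintro _ (⟨t, rfl | rfl⟩ | ⟨t, u, rfl | rfl⟩)
  · simpa [f4PairWord, gword_cons', h1, f4p1, f4p4] using pr ⟨33, by decide⟩ ⟨24, by decide⟩ 2 (by decide +kernel)
      (cm [34, 26, 36] [20, 22, 19] z3 z4 (by decide +kernel)) t
  · simpa [f4PairWord, gword_cons', h1, f4m1, f4m4] using pr ⟨14, by decide⟩ ⟨23, by decide⟩ (-2) (by decide +kernel)
      (cm [13, 21, 11] [27, 25, 28] z7 z0 (by decide +kernel)) t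
  · exact sz_eq h1 .. ▸ b2 t u
  · exact z4 _ (gword_mem' _ rfl fun _ h => h) (sz_eq h1 .. ▸ ((memF4 h1).2 t u).2)

end Cfsg.Agent.Mult
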